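-- helper32 library: lower bound for the dimension of the centralizer of a nilpotent
-- endomorphism (`d² ≤ s · dim C(N)` when `N ^ s = 0`), add-only once landed.
import Cfsg.Agent.Helper63.ProjRep

set_option autoImplicit false

namespace Cfsg.Agent.Helper32.HH

open Module Cfsg.Agent.Helper63.ProjRep

universe u v w

section General

variable {K : Type u} [Field K] {M : Type v} [AddCommGroup M] [Module K M]
  {M' : Type w} [AddCommGroup M'] [Module K M']

/-- Rank–nullity for the restriction of a linear map to a subspace. -/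
theorem finrank_map_add_finrank_inf_ker [FiniteDimensional K M] (H : Submodule K M)
    (f : M →ₗ[K] M') :
    finrank K ↥(H.map f) + finrank K ↥(H ⊓ LinearMap.ker f : Submodule K M) = finrank K ↥H := by
  have h1 := LinearMap.finrank_range_add_finrank_ker (f.domRestrict H)
  rw [LinearMap.range_domRestrict, LinearMap.ker_domRestrict] at h1
  have h2 : finrank K ↥((LinearMap.ker f).comap H.subtype) =
      finrank K ↥(H ⊓ LinearMap.ker f : Submodule K M) := by
    rw [← Submodule.map_comap_subtype]
    exact (Submodule.equivSubtypeMap H ((LinearMap.ker f).comap H.subtype)).finrank_eq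
  omega

end General

section CentLower

variable {K : Type u} [Field K] {M : Type v} [AddCommGroup M] [Module K M]

/-- The part of the centralizer of `N` killed by left multiplication by `N ^ j`. -/
def centKer (N : Module.End K M) (j : ℕ) : Submodule K (Module.End K M) :=
  cent N ⊓ LinearMap.ker (LinearMap.mulLeft K (N ^ j))

theorem mem_centKer {N e : Module.End K M} {j : ℕ} :
    e ∈ centKer N j ↔ N * e = e * N ∧ N ^ j * e = 0 := by
  unfold centKer
  rw [Submodule.mem_inf, mem_cent, LinearMap.mem_ker, LinearMap.mulLeft_apply]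

theorem centKer_zero (N : Module.End K M) : centKer N 0 = ⊥ := by
  rw [eq_bot_iff]
  intro e he
  rw [mem_centKer, pow_zero, one_mul] at he
  rw [Submodule.mem_bot]
  exact he.2

theorem centKer_eq_cent (N : Module.End K M) (s : ℕ) (hs : N ^ s = 0) : centKer N s = cent N := by
  apply le_antisymm
  · exact inf_le_left
  · intro e he
    rw [mem_centKer, hs, zero_mul]
    exact ⟨mem_cent.mp he, rfl⟩

theorem centKer_le_succ (N : Module.End K M) (j : ℕ) : centKer N j ≤ centKer N (j + 1) := by
  intro e he
  rw [mem_centKer] at he ⊢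
  refine ⟨he.1, ?_⟩
  rw [pow_succ', mul_assoc, he.2, mul_zero]

/-- The averaging construction: from `h` killed on both sides by `N ^ (j + 1)` we get an
element of the centralizer. -/
theorem exists_mem_centKer (N h : Module.End K M) (j : ℕ) (h1 : N ^ (j + 1) * h = 0)
    (h2 : h * N ^ (j + 1) = 0) :
    ∃ e ∈ centKer N (j + 1), N ^ j * e = N ^ j * h * N ^ j := by
  refine ⟨∑ i ∈ Finset.range (j + 1), N ^ i * h * N ^ (j - i), ?_, ?_⟩
  · rw [mem_centKer]
    constructor
    · have e1 : N * ∑ i ∈ Finset.range (j + 1), N ^ i * h * N ^ (j - i) =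
          ∑ i ∈ Finset.range (j + 1), N ^ (i + 1) * h * N ^ (j + 1 - (i + 1)) := by
        rw [Finset.mul_sum]
        apply Finset.sum_congr rfl
        intro i _
        rw [Nat.add_sub_add_right, pow_succ']
        simp only [mul_assoc]
      have e2 : (∑ i ∈ Finset.range (j + 1), N ^ i * h * N ^ (j - i)) * N =
          ∑ i ∈ Finset.range (j + 1), N ^ i * h * N ^ (j + 1 - i) := by
        rw [Finset.sum_mul]
        apply Finset.sum_congr rfl
        intro i hi
        rw [Finset.mem_range] at hi
        have e3 : j + 1 - i = (j - i) + 1 := by omega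
        rw [e3, pow_succ]
        simp only [mul_assoc]
      have e4 := Finset.sum_range_succ' (fun i => N ^ i * h * N ^ (j + 1 - i)) (j + 1)
      have e5 := Finset.sum_range_succ (fun i => N ^ i * h * N ^ (j + 1 - i)) (j + 1)
      simp only [pow_zero, one_mul, Nat.sub_zero, Nat.sub_self, mul_one, h1, h2, add_zero]
        at e4 e5
      rw [e1, e2, ← e4, e5]
    · rw [Finset.mul_sum]
      apply Finset.sum_eq_zero
      intro i _
      have e3 : N ^ (j + 1) * (N ^ i * h * N ^ (j - i)) = N ^ i * (N ^ (j + 1) * h) * N ^ (j - i) := by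
        rw [← mul_assoc, ← mul_assoc, (Commute.pow_pow_self N (j + 1) i).eq]
        simp only [mul_assoc]
      rw [e3, h1, mul_zero, zero_mul]
  · rw [Finset.mul_sum, Finset.sum_range_succ']
    have e1 : ∑ i ∈ Finset.range j, N ^ j * (N ^ (i + 1) * h * N ^ (j - (i + 1))) = 0 := by
      apply Finset.sum_eq_zero
      intro i _
      have e3 : N ^ j * (N ^ (i + 1) * h * N ^ (j - (i + 1))) =
          N ^ i * (N ^ (j + 1) * h) * N ^ (j - (i + 1)) := by
        have e4 : N ^ j * N ^ (i + 1) = N ^ i * N ^ (j + 1) := by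
          rw [← pow_add, ← pow_add]
          congr 1
          omega
        rw [← mul_assoc, ← mul_assoc, e4]
        simp only [mul_assoc]
      rw [e3, h1, mul_zero, zero_mul]
    rw [e1, zero_add, pow_zero, one_mul, Nat.sub_zero, mul_assoc]

/-- The key step of the filtration: the `j`-th graded piece of the centralizer has dimension at
least the square of the jump of the kernel dimensions. -/
theorem finrank_centKer_succ [FiniteDimensional K M] (N : Module.End K M) (j : ℕ) :
    finrank K ↥(centKer N j) +
      (finrank K ↥(LinearMap.ker (N ^ (j + 1))) - finrank K ↥(LinearMap.ker (N ^ j))) ^ 2 ≤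
      finrank K ↥(centKer N (j + 1)) := by
  classical
  set a : Module.End K M := N ^ j with ha
  set n1 : Module.End K M := N ^ (j + 1) with hn1
  set B : Submodule K M := LinearMap.ker n1 with hB
  set X : Submodule K M := B.map a with hX
  set R : Submodule K M := LinearMap.range n1 with hR
  set Z : Submodule K M := R.comap a with hZ
  have hd : finrank K ↥R + finrank K ↥B = finrank K M := LinearMap.finrank_range_add_finrank_ker n1
  -- dimension of `X`
  have hXdim : finrank K ↥B - finrank K ↥(LinearMap.ker a) ≤ finrank K ↥X := by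
    have h1 : finrank K ↥X + finrank K ↥(B ⊓ LinearMap.ker a : Submodule K M) = finrank K ↥B :=
      finrank_map_add_finrank_inf_ker B a
    have h2 : finrank K ↥(B ⊓ LinearMap.ker a : Submodule K M) ≤ finrank K ↥(LinearMap.ker a) :=
      Submodule.finrank_mono inf_le_right
    omega
  -- dimension of `M ⧸ Z`
  have hZdim : finrank K ↥B - finrank K ↥(LinearMap.ker a) ≤ finrank K (M ⧸ Z) := by
    have h1 := finrank_map_add_finrank_inf_ker Z a
    have h2 : finrank K ↥(Z ⊓ LinearMap.ker a : Submodule K M) ≤ finrank K ↥(LinearMap.ker a) :=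
      Submodule.finrank_mono inf_le_right
    have h3 : finrank K ↥(Z.map a) ≤ finrank K ↥R :=
      Submodule.finrank_mono (Submodule.map_comap_le a R)
    have h4 := Submodule.finrank_quotient_add_finrank Z
    omega
  -- the embedding of `Hom(M ⧸ Z, X)` into `End M`
  let Ξ : (M ⧸ Z →ₗ[K] ↥X) →ₗ[K] Module.End K M :=
    { toFun := fun g => X.subtype ∘ₗ g ∘ₗ Z.mkQ
      map_add' := by
        intro g g'
        ext m
        simp
      map_smul' := by
        intro c g
        ext m
        simp }
  have hΞ : ∀ (g : M ⧸ Z →ₗ[K] ↥X) (m : M), Ξ g m = (g (Z.mkQ m) : M) := fun g m => rfl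
  have hΞinj : Function.Injective Ξ := by
    rw [← LinearMap.ker_eq_bot, LinearMap.ker_eq_bot']
    intro g hg
    apply LinearMap.ext
    intro y
    obtain ⟨m, rfl⟩ := Z.mkQ_surjective y
    apply Subtype.ext
    have h1 := LinearMap.congr_fun hg m
    rw [hΞ] at h1
    rw [h1]
    rfl
  -- the image of `Ξ` lies in the image of the top piece under left multiplication by `a`
  have hrange : LinearMap.range Ξ ≤ (centKer N (j + 1)).map (LinearMap.mulLeft K a) := by
    rintro _ ⟨g, rfl⟩
    -- a section of `a : B → X`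
    let aB : ↥B →ₗ[K] ↥X := (a.domRestrict B).codRestrict X (fun b => ⟨b.1, b.2, rfl⟩)
    have haB : LinearMap.range aB = ⊤ := by
      rw [eq_top_iff]
      rintro ⟨x, b, hb, rfl⟩ _
      exact ⟨⟨b, hb⟩, rfl⟩
    obtain ⟨σ, hσ⟩ := aB.exists_rightInverse_of_surjective haB
    -- a retraction of `M ⧸ Z → M ⧸ R`
    let ā : M ⧸ Z →ₗ[K] M ⧸ R := Z.mapQ R a le_rfl
    have hā : LinearMap.ker ā = ⊥ := by
      rw [Submodule.ker_mapQ, Submodule.mkQ_map_self]
    obtain ⟨l, hl⟩ := ā.exists_leftInverse_of_injective hā
    let h : Module.End K M := B.subtype ∘ₗ σ ∘ₗ g ∘ₗ l ∘ₗ R.mkQ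
    have hh : ∀ m, h m = (σ (g (l (R.mkQ m))) : M) := fun m => rfl
    have h1 : n1 * h = 0 := by
      apply LinearMap.ext
      intro m
      rw [Module.End.mul_apply, hh]
      exact LinearMap.mem_ker.mp (σ (g (l (R.mkQ m)))).2
    have h2 : h * n1 = 0 := by
      apply LinearMap.ext
      intro m
      rw [Module.End.mul_apply, hh]
      have e1 : R.mkQ (n1 m) = 0 := by
        rw [Submodule.mkQ_apply, Submodule.Quotient.mk_eq_zero]
        exact LinearMap.mem_range_self n1 m
      rw [e1, map_zero, map_zero, map_zero]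
      rfl
    obtain ⟨e, he, hee⟩ := exists_mem_centKer N h j h1 h2
    refine ⟨e, he, ?_⟩
    rw [LinearMap.mulLeft_apply, hee]
    apply LinearMap.ext
    intro m
    rw [hΞ, Module.End.mul_apply, Module.End.mul_apply, hh]
    have e1 : R.mkQ (a m) = ā (Z.mkQ m) := rfl
    have e2 : l (ā (Z.mkQ m)) = Z.mkQ m := LinearMap.congr_fun hl (Z.mkQ m)
    rw [e1, e2]
    have e3 : aB (σ (g (Z.mkQ m))) = g (Z.mkQ m) := LinearMap.congr_fun hσ (g (Z.mkQ m))
    exact congrArg Subtype.val e3
  have hdim1 : finrank K (M ⧸ Z) * finrank K ↥X ≤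
      finrank K ↥((centKer N (j + 1)).map (LinearMap.mulLeft K a)) := by
    rw [← Module.finrank_linearMap, ← LinearMap.finrank_range_of_inj hΞinj]
    exact Submodule.finrank_mono hrange
  have hdim2 := finrank_map_add_finrank_inf_ker (centKer N (j + 1)) (LinearMap.mulLeft K a)
  have hdim3 : finrank K ↥(centKer N j) ≤
      finrank K ↥(centKer N (j + 1) ⊓ LinearMap.ker (LinearMap.mulLeft K a) :
        Submodule K (Module.End K M)) := by
    apply Submodule.finrank_mono
    exact le_inf (centKer_le_succ N j) inf_le_right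
  have hsq : (finrank K ↥B - finrank K ↥(LinearMap.ker a)) ^ 2 ≤
      finrank K (M ⧸ Z) * finrank K ↥X := by
    rw [sq]
    exact Nat.mul_le_mul hZdim hXdim
  omega

/-- **Centralizer bound.**  If `N ^ s = 0` on a space of dimension `d`, then
`d² ≤ s · dim C(N)`. -/
theorem sq_finrank_le_mul_cent [FiniteDimensional K M] (N : Module.End K M) (s : ℕ)
    (hs : N ^ s = 0) : (finrank K M) ^ 2 ≤ s * finrank K ↥(cent N) := by
  let κ : ℕ → ℕ := fun j => finrank K ↥(LinearMap.ker (N ^ j))
  have hκmono : ∀ j, κ j ≤ κ (j + 1) := by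
    intro j
    apply Submodule.finrank_mono
    intro m hm
    rw [LinearMap.mem_ker] at hm ⊢
    rw [pow_succ', Module.End.mul_apply, hm, map_zero]
  have hκ0 : κ 0 = 0 := by
    show finrank K ↥(LinearMap.ker (N ^ 0)) = 0
    rw [pow_zero]
    have : LinearMap.ker (1 : Module.End K M) = ⊥ := by
      rw [LinearMap.ker_eq_bot']
      intro m hm
      exact hm
    rw [this, finrank_bot]
  have hκs : κ s = finrank K M := by
    show finrank K ↥(LinearMap.ker (N ^ s)) = finrank K M
    rw [hs, LinearMap.ker_zero, finrank_top]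
  have hsum1 : ∀ t, ∑ j ∈ Finset.range t, (κ (j + 1) - κ j) = κ t := by
    intro t
    induction t with
    | zero => rw [Finset.sum_range_zero, hκ0]
    | succ t ih =>
      rw [Finset.sum_range_succ, ih]
      have := hκmono t
      omega
  have hsum2 : ∀ t, ∑ j ∈ Finset.range t, (κ (j + 1) - κ j) ^ 2 ≤ finrank K ↥(centKer N t) := by
    intro t
    induction t with
    | zero => simp
    | succ t ih =>
      rw [Finset.sum_range_succ]
      have : finrank K ↥(centKer N t) + (κ (t + 1) - κ t) ^ 2 ≤ finrank K ↥(centKer N (t + 1)) :=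
        finrank_centKer_succ N t
      omega
  calc (finrank K M) ^ 2 = (∑ j ∈ Finset.range s, (κ (j + 1) - κ j)) ^ 2 := by rw [hsum1, hκs]
    _ ≤ (Finset.range s).card * ∑ j ∈ Finset.range s, (κ (j + 1) - κ j) ^ 2 :=
        sq_sum_le_card_mul_sum_sq
    _ ≤ s * finrank K ↥(cent N) := by
        rw [Finset.card_range, ← centKer_eq_cent N s hs]
        exact Nat.mul_le_mul_left _ (hsum2 s)

end CentLower

end Cfsg.Agent.Helper32.HH
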