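-- helper32 library: the critical case of Hall–Higman's Theorem B (a class-2 `q`-group with
-- scalar centre, normalized by an operator acting freely modulo the centre), add-only once
-- landed.
import Cfsg.Agent.Helper32.HHCent
import Cfsg.Agent.Helper63.ProjRepGroup

set_option autoImplicit false

namespace Cfsg.Agent.Helper32.HH

open Module Cfsg.Agent.Helper63.ProjRep

universe u v w

section Nilp

variable {K : Type u} [Field K] {M : Type v} [AddCommGroup M] [Module K M]

/-- A nilpotent endomorphism is killed by the power `finrank`. -/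
theorem pow_finrank_eq_zero [FiniteDimensional K M] (N : Module.End K M) (s : ℕ)
    (hs : N ^ s = 0) : N ^ (finrank K M) = 0 := by
  have h1 : IsNilpotent N := ⟨s, hs⟩
  have h2 := (LinearMap.isNilpotent_iff_charpoly N).mp h1
  have h3 := LinearMap.aeval_self_charpoly N
  rw [h2] at h3
  simpa using h3

theorem cent_sub_one (ξ : Module.End K M) : cent (ξ - 1) = cent ξ := by
  ext e
  rw [mem_cent, mem_cent, sub_mul, mul_sub, one_mul, mul_one, sub_left_inj]

/-- The arithmetic of the critical case. -/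
theorem crit_arith {d S P c s : ℕ} (hd : d * d = (S * P + 1) * c)
    (h1 : d * d ≤ s * (S * c + 1)) (h2 : s ≤ d) (hlt : s < P) (hS : 0 < S) (hd0 : 0 < d) :
    S * P + 1 = (P - 1) ^ 2 ∧ P - 1 ≤ s := by
  obtain ⟨P', rfl⟩ : ∃ P', P = P' + 1 := ⟨P - 1, by omega⟩
  have hsP : s ≤ P' := by omega
  simp only [Nat.add_sub_cancel]
  have hc0 : 0 < c := by
    rcases Nat.eq_zero_or_pos c with h | h
    · rw [h, mul_zero] at hd
      have := Nat.mul_pos hd0 hd0
      omega
    · exact h
  -- [A] : S c + c ≤ P'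
  have hA : S * c + c ≤ P' := by
    have e1 : s * (S * c + 1) ≤ P' * (S * c + 1) := Nat.mul_le_mul_right _ hsP
    nlinarith
  -- [B] : d ≤ S c + 1
  have hB : d ≤ S * c + 1 := by
    have e1 : s * (S * c + 1) ≤ d * (S * c + 1) := Nat.mul_le_mul_right _ h2
    have e2 : d * d ≤ d * (S * c + 1) := h1.trans e1
    exact Nat.le_of_mul_le_mul_left e2 hd0
  have hB2 : d * d ≤ (S * c + 1) * (S * c + 1) := Nat.mul_le_mul hB hB
  have hlow : (S * (S * c + c + 1) + 1) * c ≤ d * d := by
    rw [hd]
    apply Nat.mul_le_mul_right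
    have : S * (S * c + c + 1) ≤ S * (P' + 1) := Nat.mul_le_mul_left _ (by omega)
    omega
  have hc1 : c = 1 := by
    by_contra hne
    have hc2 : 2 ≤ c := by omega
    have e1 : S * c * 2 ≤ S * c * c := Nat.mul_le_mul_left _ hc2
    nlinarith
  subst hc1
  simp only [mul_one] at hA hB hB2 hlow hd h1
  have hd1 : d = S + 1 := by
    apply le_antisymm hB
    by_contra hcon
    push Not at hcon
    have e1 : d * d ≤ S * S := Nat.mul_le_mul (by omega) (by omega)
    nlinarith
  subst hd1
  have hP' : P' = S + 1 := by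
    have e1 : S * (P' + 1) = S * (S + 2) := by nlinarith
    have e2 := Nat.eq_of_mul_eq_mul_left hS e1
    omega
  subst hP'
  constructor
  · ring
  · have e2 : (S + 1) * (S + 1) ≤ (S + 1) * s := by
      rw [mul_comm (S + 1) s]
      exact h1
    exact Nat.le_of_mul_le_mul_left e2 (by omega)

end Nilp

section Crit

variable {K : Type u} [Field K] {M : Type v} [AddCommGroup M] [Module K M]
  {Q : Type w} [Group Q] [Finite Q]

/-- **Critical case.**  Let `Q` be a `q`-group of class at most two, not abelian, with a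
representation `ρ` whose centre acts by scalars and with nondegenerate commutator pairing.
Let `ξ` normalize it, inducing an automorphism `φ` with `φ ^ P = 1` acting freely modulo the
centre, and suppose that the only endomorphisms commuting with `ρ` and `ξ` are the scalars.
If `(ξ - 1) ^ s = 0` then `P ≤ s`, or `P - 1` is a power of `q` and `P - 1 ≤ s`. -/
theorem hh_crit [IsAlgClosed K] [FiniteDimensional K M] [Nontrivial M]
    {ρ : Q →* Module.End K M} {lam : Q → K} (H : Hyp ρ lam) {q : ℕ} [hqF : Fact q.Prime]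
    (hQ : IsPGroup q Q) (φ : MulAut Q) (ξ ξi : Module.End K M) (hξ : ξ * ξi = 1)
    (hξ' : ξi * ξ = 1) (hequiv : ∀ g, ξ * ρ g * ξi = ρ (φ g)) (P : ℕ) (hP : 0 < P)
    (hφP : φ ^ P = 1)
    (hfree : ∀ g : Q, ∀ i, 0 < i → i < P → (φ ^ i) g * g⁻¹ ∈ Subgroup.center Q →
      g ∈ Subgroup.center Q)
    (hschur : ∀ e : Module.End K M, (∀ g, ρ g * e = e * ρ g) → ξ * e = e * ξ →
      ∃ c : K, e = c • (1 : Module.End K M))
    (hZ : Subgroup.center Q ≠ ⊤) (s : ℕ) (hs : (ξ - 1) ^ s = 0) :
    P ≤ s ∨ ∃ m, 1 ≤ m ∧ P - 1 = q ^ m ∧ P - 1 ≤ s := by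
  classical
  have hq : q.Prime := hqF.out
  letI : Fintype (Q ⧸ Subgroup.center Q) := Fintype.ofFinite _
  have hmap : (Subgroup.center Q).map (φ : Q →* Q) = Subgroup.center Q := by
    apply le_antisymm
    · rintro _ ⟨z, hz, rfl⟩
      exact map_mem_center φ hz
    · intro z hz
      exact ⟨φ.symm z, map_mem_center φ.symm hz, φ.apply_symm_apply z⟩
  let σe : (Q ⧸ Subgroup.center Q) ≃* (Q ⧸ Subgroup.center Q) :=
    QuotientGroup.congr (Subgroup.center Q) (Subgroup.center Q) φ hmap
  let σ : Equiv.Perm (Q ⧸ Subgroup.center Q) := σe.toEquiv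
  have hσmk : ∀ a : Q, σ (QuotientGroup.mk a) = QuotientGroup.mk (φ a) :=
    fun a => QuotientGroup.congr_mk (Subgroup.center Q) (Subgroup.center Q) φ hmap a
  have hσpow : ∀ (i : ℕ) (a : Q), (σ ^ i) (QuotientGroup.mk a) = QuotientGroup.mk ((φ ^ i) a) := by
    intro i
    induction i with
    | zero =>
      intro a
      rfl
    | succ i ih =>
      intro a
      rw [pow_succ', Equiv.Perm.mul_apply, ih, hσmk, pow_succ', MulAut.mul_apply]
  have hzw : ∀ x : Q ⧸ Subgroup.center Q,
      (Quotient.out (σ x))⁻¹ * φ (Quotient.out x) ∈ Subgroup.center Q := by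
    intro x
    have h1 : (QuotientGroup.mk (Quotient.out (σ x)) : Q ⧸ Subgroup.center Q) =
        QuotientGroup.mk (φ (Quotient.out x)) := by
      rw [QuotientGroup.out_eq', ← hσmk, QuotientGroup.out_eq']
    exact QuotientGroup.eq.mp h1
  let sf : Q ⧸ Subgroup.center Q → K :=
    fun x => lam ((Quotient.out (σ x))⁻¹ * φ (Quotient.out x))
  have hsf : ∀ x, ξ * H.data.τ x * ξi = sf x • H.data.τ (σ x) := by
    intro x
    show ξ * ρ (Quotient.out x) * ξi =
      lam ((Quotient.out (σ x))⁻¹ * φ (Quotient.out x)) • ρ (Quotient.out (σ x))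
    rw [hequiv]
    have h1 : φ (Quotient.out x) =
        Quotient.out (σ x) * ((Quotient.out (σ x))⁻¹ * φ (Quotient.out x)) := by group
    conv_lhs => rw [h1]
    rw [map_mul, H.scalar _ (hzw x), mul_smul_comm, mul_one]
  have hsf0 : ∀ x, sf x ≠ 0 := fun x => H.lam_ne_zero (hzw x)
  have hσr : σ ^ P = 1 := by
    ext x
    rw [← QuotientGroup.out_eq' x, hσpow, hφP]
    rfl
  have hσ1 : σ 1 = 1 := map_one σe
  have hfree' : ∀ x, x ≠ 1 → ∀ i, 0 < i → i < P → (σ ^ i) x ≠ x := by
    intro x hx i hi0 hir hfix'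
    apply out_notMem hx
    apply hfree (Quotient.out x) i hi0 hir
    have h0 : (QuotientGroup.mk ((φ ^ i) (Quotient.out x)) : Q ⧸ Subgroup.center Q) =
        QuotientGroup.mk (Quotient.out x) := by
      rw [← hσpow, QuotientGroup.out_eq']
      exact hfix'
    have h1 := QuotientGroup.eq.mp h0
    have h2 := Subgroup.inv_mem _ h1
    have h3 : (φ ^ i) (Quotient.out x) * (Quotient.out x)⁻¹ =
        (Quotient.out x) * (((φ ^ i) (Quotient.out x))⁻¹ * Quotient.out x)⁻¹ *
          (Quotient.out x)⁻¹ := by group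
    rw [h3]
    exact (inferInstance : (Subgroup.center Q).Normal).conj_mem _ h2 _
  obtain ⟨S, hS1, hcov, hcard⟩ := exists_reps σ P hP hσr hσ1 hfree'
  -- the minimal exponent
  have hex : ∃ k, (ξ - 1) ^ k = 0 := ⟨s, hs⟩
  obtain ⟨s₀, hs₀def⟩ : ∃ s₀, s₀ = Nat.find hex := ⟨_, rfl⟩
  have hs₀ : (ξ - 1) ^ s₀ = 0 := by
    rw [hs₀def]
    exact Nat.find_spec hex
  have hs₀le : s₀ ≤ s := by
    rw [hs₀def]
    exact Nat.find_min' hex hs
  have hs₀d : s₀ ≤ finrank K M := by
    rw [hs₀def]
    exact Nat.find_min' hex (pow_finrank_eq_zero _ s hs)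
  obtain ⟨D, hD⟩ : ∃ D : Data K M (Q ⧸ Subgroup.center Q), D = H.data := ⟨_, rfl⟩
  rw [← hD] at hsf
  have hτ : ∀ x, D.τ x = ρ (Quotient.out x) := by
    intro x
    rw [hD]
    rfl
  -- the restriction map to the orbit representatives
  let L : ↥(cent ξ) →ₗ[K] (↥S → ↥D.comm1) :=
    (LinearMap.funLeft K ↥D.comm1 (Subtype.val : ↥S → Q ⧸ Subgroup.center Q)) ∘ₗ D.Φ ∘ₗ
      (cent ξ).subtype
  have hker : ∀ e ∈ LinearMap.ker L, ∃ c : K, (e : Module.End K M) = c • (1 : Module.End K M) := by
    intro e he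
    have h0 : ∀ a ∈ S, D.Φ (e : Module.End K M) a = 0 := by
      intro a ha
      exact congrFun he ⟨a, ha⟩
    have hstep : ∀ i : ℕ, ∀ a ∈ S, D.Φ (e : Module.End K M) ((σ ^ i) a) = 0 := by
      intro i
      induction i with
      | zero =>
        intro a ha
        exact h0 a ha
      | succ i ih =>
        intro a ha
        apply Subtype.ext
        rw [pow_succ', Equiv.Perm.mul_apply,
          D.Φ_sigma ξ ξi hξ hξ' σ sf hsf0 hsf (e : Module.End K M) e.2 ((σ ^ i) a), ih a ha]
        simp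
    have hall : ∀ w, w ≠ 1 → D.Φ (e : Module.End K M) w = 0 := by
      intro w hw
      obtain ⟨a, ha, i, hi⟩ := hcov w hw
      rw [← hi]
      exact hstep i a ha
    have h1 := D.Ψ_Φ (e : Module.End K M)
    rw [D.Ψ_apply, Finset.sum_eq_single 1 (fun w _ hw => by rw [hall w hw]; simp)
      (fun h => absurd (Finset.mem_univ _) h)] at h1
    have hout1 : Quotient.out (1 : Q ⧸ Subgroup.center Q) ∈ Subgroup.center Q := by
      apply (QuotientGroup.eq_one_iff _).mp
      exact QuotientGroup.out_eq' _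
    have hτ1 : D.τ 1 = lam (Quotient.out (1 : Q ⧸ Subgroup.center Q)) • (1 : Module.End K M) := by
      rw [hτ]
      exact H.scalar _ hout1
    have hecomm : (e : Module.End K M) ∈ D.comm1 := by
      rw [← h1, hτ1, smul_mul_assoc, one_mul]
      exact D.comm1.smul_mem _ (D.Φ (e : Module.End K M) 1).2
    apply hschur
    · intro g
      obtain ⟨z, hz, hgz⟩ := out_mk g
      have h2 : D.τ (QuotientGroup.mk g) = lam z • ρ g := by
        rw [hτ, hgz, map_mul, H.scalar z hz, mul_smul_comm, mul_one]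
      have h3 : ρ g = (lam z)⁻¹ • D.τ (QuotientGroup.mk g) := by
        rw [h2, smul_smul, inv_mul_cancel₀ (H.lam_ne_zero hz), one_smul]
      rw [h3, smul_mul_assoc, mul_smul_comm, hecomm (QuotientGroup.mk g)]
    · exact e.2
  have hkerdim : finrank K ↥(LinearMap.ker L) ≤ 1 := by
    have h1 : (LinearMap.ker L).map (cent ξ).subtype ≤ K ∙ (1 : Module.End K M) := by
      rintro _ ⟨e, he, rfl⟩
      obtain ⟨c, hc⟩ := hker e he
      rw [Submodule.coe_subtype, hc]
      exact Submodule.smul_mem _ _ (Submodule.mem_span_singleton_self _)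
    have h2 : finrank K ↥((LinearMap.ker L).map (cent ξ).subtype) = finrank K ↥(LinearMap.ker L) :=
      (Submodule.equivSubtypeMap (cent ξ) (LinearMap.ker L)).finrank_eq.symm
    have h3 : finrank K ↥(K ∙ (1 : Module.End K M)) ≤ 1 := by
      rw [finrank_span_singleton one_ne_zero]
    have h4 := Submodule.finrank_mono h1
    omega
  have hcent : finrank K ↥(cent ξ) ≤ S.card * finrank K ↥D.comm1 + 1 := by
    have h1 := LinearMap.finrank_range_add_finrank_ker L
    have h2 : finrank K ↥(LinearMap.range L) ≤ finrank K (↥S → ↥D.comm1) := Submodule.finrank_le _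
    rw [Module.finrank_pi_fintype, Finset.sum_const, Finset.card_univ, Fintype.card_coe,
      smul_eq_mul] at h2
    omega
  have h3 := D.finrank_end
  rw [Module.finrank_linearMap] at h3
  have hii := sq_finrank_le_mul_cent (ξ - 1) s₀ hs₀
  rw [cent_sub_one, sq] at hii
  have hDpos : 0 < finrank K M := Module.finrank_pos
  have hidx : Fintype.card (Q ⧸ Subgroup.center Q) = (Subgroup.center Q).index := by
    rw [Subgroup.index, Nat.card_eq_fintype_card]
  by_cases hsP : P ≤ s₀
  · exact Or.inl (hsP.trans hs₀le)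
  · right
    push Not at hsP
    have hS0 : 0 < S.card := by
      rcases Nat.eq_zero_or_pos S.card with h | h
      · exfalso
        apply hZ
        apply Subgroup.index_eq_one.mp
        rw [← hidx, ← hcard, h, zero_mul]
      · exact h
    have hd : finrank K M * finrank K M = (S.card * P + 1) * finrank K ↥D.comm1 := by
      rw [hcard]
      exact h3
    have h1 : finrank K M * finrank K M ≤ s₀ * (S.card * finrank K ↥D.comm1 + 1) :=
      hii.trans (Nat.mul_le_mul_left _ hcent)
    obtain ⟨e1, e2⟩ := crit_arith hd h1 hs₀d hsP hS0 hDpos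
    obtain ⟨kQ, hkQ⟩ := IsPGroup.iff_card.mp hQ
    have h5 : (Subgroup.center Q).index ∣ q ^ kQ := by
      rw [← hkQ]
      exact Subgroup.index_dvd_card _
    have h6 : P - 1 ∣ q ^ kQ := by
      refine dvd_trans ?_ h5
      rw [← hidx, ← hcard, e1]
      exact dvd_pow_self _ two_ne_zero
    obtain ⟨m, -, hm⟩ := (Nat.dvd_prime_pow hq).mp h6
    refine ⟨m, ?_, hm, e2.trans hs₀le⟩
    rcases Nat.eq_zero_or_pos m with h | h
    · exfalso
      rw [h, pow_zero] at hm
      rw [hm, one_pow] at e1
      have : 0 < S.card * P := Nat.mul_pos hS0 hP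
      omega
    · exact h

end Crit

end Cfsg.Agent.Helper32.HH
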