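-- helper32 library: Hall–Higman's Theorem B in linear form (a `q`-group of invertible linear
-- maps in characteristic `p`, normalized by a `p`-element `x` whose `p`-part of highest order
-- acts nontrivially), add-only once landed.
import Cfsg.Agent.Helper32.HHCrit
import Cfsg.Agent.Helper63.GrossClifford

set_option autoImplicit false

namespace Cfsg.Agent.Helper32.HH

open Module Cfsg.Agent.Helper63.ProjRep Cfsg.Agent.Helper63.Shult Cfsg.Agent.Helper63.Gross

open scoped commutatorElement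

universe u v w

section Poly

variable {K : Type u} [Field K] {M : Type v} [AddCommGroup M] [Module K M]

theorem sub_one_pow_char_pow (p : ℕ) [Fact p.Prime] [CharP K p] (ξ : Module.End K M) (k : ℕ) :
    (ξ - 1) ^ (p ^ k) = ξ ^ (p ^ k) - 1 := by
  have h1 : ((Polynomial.X : Polynomial K) - 1) ^ (p ^ k) = Polynomial.X ^ (p ^ k) - 1 := by
    rw [sub_pow_char_pow, one_pow]
  have h2 := congrArg (Polynomial.aeval ξ) h1
  simpa using h2

theorem sub_one_pow_pred (p : ℕ) [hp : Fact p.Prime] [CharP K p] (ξ : Module.End K M) (k : ℕ) :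
    (ξ - 1) ^ (p ^ k - 1) = ∑ i ∈ Finset.range (p ^ k), ξ ^ i := by
  have h1 : ((Polynomial.X : Polynomial K) - 1) ^ (p ^ k - 1) =
      ∑ i ∈ Finset.range (p ^ k), (Polynomial.X : Polynomial K) ^ i := by
    have hX : (Polynomial.X : Polynomial K) - 1 ≠ 0 := by
      have := Polynomial.X_sub_C_ne_zero (1 : K)
      simpa using this
    apply mul_right_cancel₀ hX
    have hpos : 1 ≤ p ^ k := Nat.one_le_pow _ _ hp.out.pos
    rw [geom_sum_mul, ← pow_succ, Nat.sub_add_cancel hpos, sub_pow_char_pow, one_pow]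
  have h2 := congrArg (Polynomial.aeval ξ) h1
  simpa using h2

theorem restrict_sub_one_pow (η : Module.End K M) (W : Submodule K M) (hW : ∀ w ∈ W, η w ∈ W)
    (j : ℕ) (w : ↥W) :
    ((((η.restrict hW : Module.End K ↥W) - 1) ^ j) w : M) = ((η - 1) ^ j) (w : M) := by
  induction j generalizing w with
  | zero => simp
  | succ j ih =>
    rw [pow_succ, Module.End.mul_apply, ih, pow_succ, Module.End.mul_apply]
    rfl

/-- If the translates `ξ ^ i W` (`i < p ^ k`) are independent and `ξ ^ (p ^ k)` maps `W` to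
itself, then the nilpotency index of `ξ - 1` is at least `p ^ k` times that of
`ξ ^ (p ^ k) - 1` on `W`. -/
theorem orbit_bound (p : ℕ) [hp : Fact p.Prime] [CharP K p] (ξ : Module.End K M)
    (W : Submodule K M) (k : ℕ)
    (horb : ∀ w ∈ W, ∑ i ∈ Finset.range (p ^ k), (ξ ^ i) w = 0 → w = 0) (s : ℕ)
    (hs : (ξ - 1) ^ s = 0) (j : ℕ) (w : M) (hmem : ((ξ ^ (p ^ k) - 1) ^ j) w ∈ W)
    (hw : ((ξ ^ (p ^ k) - 1) ^ j) w ≠ 0) : p ^ k * j + p ^ k ≤ s := by
  by_contra hcon
  push Not at hcon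
  have hpos : 1 ≤ p ^ k := Nat.one_le_pow _ _ hp.out.pos
  have h1 : (ξ - 1) ^ (p ^ k - 1 + p ^ k * j) = 0 := by
    have e1 : p ^ k - 1 + p ^ k * j = s + (p ^ k - 1 + p ^ k * j - s) := by omega
    rw [e1, pow_add, hs, zero_mul]
  apply hw
  apply horb _ hmem
  have h2 : (ξ - 1) ^ (p ^ k - 1 + p ^ k * j) =
      (∑ i ∈ Finset.range (p ^ k), ξ ^ i) * (ξ ^ (p ^ k) - 1) ^ j := by
    rw [pow_add, pow_mul, sub_one_pow_char_pow, sub_one_pow_pred]
  have h3 := LinearMap.congr_fun h2 w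
  rw [h1, Module.End.mul_apply, LinearMap.sum_apply] at h3
  exact h3.symm

end Poly

section GroupLemmas

variable {P : Type w} [Group P]

/-- Coprime action: an automorphism of order dividing `R` (prime to `q`) of a `q`-group which
moves `g` by a fixed element fixes `g`. -/
theorem eq_one_of_aut_coprime {q R : ℕ} (hR : Nat.Coprime R q) (hP : IsPGroup q P)
    (ψ : MulAut P) (hψR : ψ ^ R = 1) (g c : P) (hg : ψ g = g * c) (hc : ψ c = c) : c = 1 := by
  have h1 := aut_pow_apply_of ψ g c hg hc R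
  rw [hψR, MulAut.one_apply] at h1
  have h2 : c ^ R = 1 := left_eq_mul.mp h1
  obtain ⟨j, hj⟩ := hP c
  have h3 : orderOf c ∣ R := orderOf_dvd_of_pow_eq_one h2
  have h4 : orderOf c ∣ q ^ j := orderOf_dvd_of_pow_eq_one hj
  have h5 : Nat.Coprime R (q ^ j) := Nat.Coprime.pow_right j hR
  have h6 := Nat.dvd_gcd h3 h4
  rw [Nat.Coprime.gcd_eq_one h5] at h6
  exact orderOf_eq_one_iff.mp (Nat.dvd_one.mp h6)

/-- Under minimality (every proper `φ`-invariant subgroup is centralized by `ψ`), a subgroup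
containing all the `ψ g * g⁻¹` is everything, or `ψ` is trivial. -/
theorem top_or_trivial {q R : ℕ} (hR : Nat.Coprime R q) (hP : IsPGroup q P) (φ ψ : MulAut P)
    (hψR : ψ ^ R = 1) (hcomm : ∀ g, ψ (φ g) = φ (ψ g))
    (hmin : ∀ P₀ : Subgroup P, P₀ ≠ ⊤ → (∀ g ∈ P₀, φ g ∈ P₀) → ∀ g ∈ P₀, ψ g = g)
    (T₀ : Subgroup P) (hT₀ : ∀ g, ψ g * g⁻¹ ∈ T₀) : T₀ = ⊤ ∨ ∀ g, ψ g = g := by
  let T : Subgroup P :=
    { carrier := {h | ∀ i : ℕ, (φ ^ i) h ∈ T₀}
      one_mem' := by
        intro i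
        rw [map_one]
        exact T₀.one_mem
      mul_mem' := by
        intro a b ha hb i
        rw [map_mul]
        exact T₀.mul_mem (ha i) (hb i)
      inv_mem' := by
        intro a ha i
        rw [map_inv]
        exact T₀.inv_mem (ha i) }
  have hTmem : ∀ h, h ∈ T ↔ ∀ i : ℕ, (φ ^ i) h ∈ T₀ := fun h => Iff.rfl
  have hTφ : ∀ g ∈ T, φ g ∈ T := by
    intro g hg
    rw [hTmem] at hg ⊢
    intro i
    have h1 := hg (i + 1)
    rwa [pow_succ, MulAut.mul_apply] at h1
  have hcommi : ∀ (i : ℕ) (g : P), ψ ((φ ^ i) g) = (φ ^ i) (ψ g) := by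
    intro i
    induction i with
    | zero =>
      intro g
      rfl
    | succ i ih =>
      intro g
      rw [pow_succ, MulAut.mul_apply, ih, hcomm, MulAut.mul_apply]
  have hTgen : ∀ g, ψ g * g⁻¹ ∈ T := by
    intro g
    rw [hTmem]
    intro i
    rw [map_mul, map_inv, ← hcommi]
    exact hT₀ _
  by_cases hT : T = ⊤
  · left
    rw [eq_top_iff]
    intro h _
    have h1 : h ∈ T := by
      rw [hT]
      exact Subgroup.mem_top h
    have h2 := (hTmem h).mp h1 0
    simpa using h2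
  · right
    intro g
    have hfix := hmin T hT hTφ
    have hc : g⁻¹ * ψ g ∈ T := by
      have h1 := T.inv_mem (hTgen g⁻¹)
      have h2 : (ψ g⁻¹ * g⁻¹⁻¹)⁻¹ = g⁻¹ * ψ g := by
        rw [map_inv]
        group
      rwa [h2] at h1
    have h3 : ψ g = g * (g⁻¹ * ψ g) := by group
    have h4 := eq_one_of_aut_coprime hR hP ψ hψR g (g⁻¹ * ψ g) h3 (hfix _ hc)
    exact (inv_mul_eq_one.mp h4).symm

theorem aut_pow_fix (φ : MulAut P) (g : P) (h : φ g = g) (i : ℕ) : (φ ^ i) g = g := by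
  induction i with
  | zero => rfl
  | succ i ih => rw [pow_succ, MulAut.mul_apply, h, ih]

theorem aut_pow_comm (φ : MulAut P) (i : ℕ) (g : P) : (φ ^ i) (φ g) = φ ((φ ^ i) g) := by
  rw [← MulAut.mul_apply, ← MulAut.mul_apply, ← pow_succ, ← pow_succ']

variable [Finite P]

/-- **Critical structure** for Theorem B: a nonabelian `q`-group with an automorphism `φ` of
order dividing `p ^ n` fixing the centre pointwise, such that `ψ = φ ^ (p ^ (n - 1))` acts
nontrivially but centralizes every proper `φ`-invariant subgroup, has class two and `φ` acts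
freely modulo the centre. -/
theorem critical_structure {p q n : ℕ} (hp : p.Prime) [hqF : Fact q.Prime] (hpq : p ≠ q)
    (hn : 1 ≤ n) (hP : IsPGroup q P) (φ : MulAut P) (hφP : φ ^ (p ^ n) = 1)
    (hmin : ∀ P₀ : Subgroup P, P₀ ≠ ⊤ → (∀ g ∈ P₀, φ g ∈ P₀) →
      ∀ g ∈ P₀, (φ ^ (p ^ (n - 1))) g = g)
    (hne : ∃ g, (φ ^ (p ^ (n - 1))) g ≠ g) (hnonab : ∃ a b : P, a * b ≠ b * a)
    (hfixZ : ∀ z ∈ Subgroup.center P, φ z = z) :
    (∀ g h : P, cm g h ∈ Subgroup.center P) ∧
    (∀ g : P, ∀ i, 0 < i → i < p ^ n → (φ ^ i) g * g⁻¹ ∈ Subgroup.center P →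
      g ∈ Subgroup.center P) := by
  have hq : q.Prime := hqF.out
  have hcop : Nat.Coprime p q := (Nat.coprime_primes hp hq).mpr hpq
  obtain ⟨ψ, hψ⟩ : ∃ ψ : MulAut P, ψ = φ ^ (p ^ (n - 1)) := ⟨_, rfl⟩
  rw [← hψ] at hmin hne
  have hψp : ψ ^ p = 1 := by
    rw [hψ, ← pow_mul, ← pow_succ, Nat.sub_add_cancel hn, hφP]
  have hψφ : ∀ g, ψ (φ g) = φ (ψ g) := by
    intro g
    rw [hψ]
    exact aut_pow_comm φ _ g
  have hN := top_or_trivial hcop hP φ ψ hψp hψφ hmin
  have hb : ∀ N₀ : Subgroup P, N₀.Normal → N₀ ≠ ⊤ → (∀ g ∈ N₀, φ g ∈ N₀) →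
      N₀ ≤ Subgroup.center P := by
    intro N₀ hNn hNtop hNφ
    have hfixN := hmin N₀ hNtop hNφ
    have hT₀ : ∀ g, ψ g * g⁻¹ ∈ Subgroup.centralizer (N₀ : Set P) := by
      intro g
      rw [Subgroup.mem_centralizer_iff]
      intro m hm
      have hm' : g⁻¹ * m * g ∈ N₀ := by
        have := hNn.conj_mem m hm g⁻¹
        rwa [inv_inv] at this
      have h1 := hfixN _ hm'
      rw [map_mul, map_mul, map_inv, hfixN m hm] at h1
      calc m * (ψ g * g⁻¹) = ψ g * ((ψ g)⁻¹ * m * ψ g) * g⁻¹ := by group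
        _ = ψ g * (g⁻¹ * m * g) * g⁻¹ := by rw [h1]
        _ = ψ g * g⁻¹ * m := by group
    rcases hN _ hT₀ with hC | hC
    · intro m hm
      rw [Subgroup.mem_center_iff]
      intro g
      have hg : g ∈ Subgroup.centralizer (N₀ : Set P) := by
        rw [hC]
        exact Subgroup.mem_top g
      exact (Subgroup.mem_centralizer_iff.mp hg m hm).symm
    · exfalso
      obtain ⟨g, hg⟩ := hne
      exact hg (hC g)
  have hcent_ne : Subgroup.center P ≠ ⊤ := by
    intro h
    obtain ⟨a, b, hab⟩ := hnonab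
    apply hab
    have ha : a ∈ Subgroup.center P := by
      rw [h]
      exact Subgroup.mem_top a
    exact (Subgroup.mem_center_iff.mp ha b).symm
  have hcomm_le : commutator P ≤ Subgroup.center P := by
    apply hb _ inferInstance
    · haveI : Nontrivial P := by
        obtain ⟨a, b, hab⟩ := hnonab
        exact ⟨a * b, b * a, hab⟩
      haveI : Group.IsNilpotent P := hP.isNilpotent
      exact (Group.IsSolvable.commutator_lt_top_of_nontrivial P).ne
    · intro g hg
      have hchar : (commutator P).Characteristic := inferInstance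
      have h1 := Subgroup.characteristic_iff_map_eq.mp hchar φ
      rw [← h1]
      exact Subgroup.mem_map_of_mem _ hg
  have hcc : ∀ g h : P, cm g h ∈ Subgroup.center P := by
    intro g h
    apply hcomm_le
    have h1 : cm g h = ⁅g, h⁆ := by rw [cm_def, commutatorElement_def]
    rw [h1, commutator_def]
    exact Subgroup.commutator_mem_commutator (Subgroup.mem_top g) (Subgroup.mem_top h)
  refine ⟨hcc, ?_⟩
  intro g₀ i hi0 hiP hg₀
  obtain ⟨χ, hχ⟩ : ∃ χ : MulAut P, χ = φ ^ i := ⟨_, rfl⟩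
  rw [← hχ] at hg₀
  have hχP : χ ^ (p ^ n) = 1 := by rw [hχ, ← pow_mul, mul_comm, pow_mul, hφP, one_pow]
  have hχZ : ∀ z ∈ Subgroup.center P, χ z = z := by
    intro z hz
    rw [hχ]
    exact aut_pow_fix φ z (hfixZ z hz) i
  have hχφ : ∀ g, χ (φ g) = φ (χ g) := by
    intro g
    rw [hχ]
    exact aut_pow_comm φ _ g
  let D : Subgroup P :=
    { carrier := {g | χ g * g⁻¹ ∈ Subgroup.center P}
      one_mem' := by
        show χ 1 * 1⁻¹ ∈ Subgroup.center P
        rw [map_one, inv_one, mul_one]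
        exact Subgroup.one_mem _
      mul_mem' := by
        intro a b ha hb
        have ha' : χ a * a⁻¹ ∈ Subgroup.center P := ha
        have hb' : χ b * b⁻¹ ∈ Subgroup.center P := hb
        show χ (a * b) * (a * b)⁻¹ ∈ Subgroup.center P
        have h1 : χ (a * b) * (a * b)⁻¹ = χ a * (χ b * b⁻¹) * a⁻¹ := by
          rw [map_mul]
          group
        have h2 : χ a * (χ b * b⁻¹) = (χ b * b⁻¹) * χ a :=
          Subgroup.mem_center_iff.mp hb' (χ a)
        rw [h1, h2, mul_assoc]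
        exact Subgroup.mul_mem _ hb' ha'
      inv_mem' := by
        intro a ha
        have ha' : χ a * a⁻¹ ∈ Subgroup.center P := ha
        show χ a⁻¹ * a⁻¹⁻¹ ∈ Subgroup.center P
        have h1 : χ a⁻¹ * a⁻¹⁻¹ = a⁻¹ * (χ a * a⁻¹)⁻¹ * a := by
          rw [map_inv]
          group
        have h2 : a⁻¹ * (χ a * a⁻¹)⁻¹ = (χ a * a⁻¹)⁻¹ * a⁻¹ :=
          Subgroup.mem_center_iff.mp (Subgroup.inv_mem _ ha') a⁻¹
        rw [h1, h2, mul_assoc, inv_mul_cancel, mul_one]
        exact Subgroup.inv_mem _ ha' }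
  have hDmem : ∀ g, g ∈ D ↔ χ g * g⁻¹ ∈ Subgroup.center P := fun g => Iff.rfl
  have hZD : Subgroup.center P ≤ D := by
    intro z hz
    rw [hDmem, hχZ z hz, mul_inv_cancel]
    exact Subgroup.one_mem _
  have hDnormal : D.Normal := by
    constructor
    intro m hm g
    have h1 : g * m * g⁻¹ = cm g m * m := by
      rw [cm_def]
      group
    rw [h1]
    exact Subgroup.mul_mem _ (hZD (hcc g m)) hm
  have hDφ : ∀ g ∈ D, φ g ∈ D := by
    intro g hg
    rw [hDmem] at hg ⊢
    rw [hχφ, ← map_inv, ← map_mul]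
    exact map_mem_center φ hg
  have hDtop : D ≠ ⊤ := by
    intro hD
    obtain ⟨g, hg⟩ := hne
    apply hg
    have h1 : ∀ g, χ g = g := by
      intro g
      have hgD : g ∈ D := by
        rw [hD]
        exact Subgroup.mem_top g
      rw [hDmem] at hgD
      have h2 : χ g = g * (χ g * g⁻¹) := by
        have h2' := Subgroup.mem_center_iff.mp hgD g
        rw [h2']
        group
      have h3 := eq_one_of_aut_coprime (Nat.Coprime.pow_left n hcop) hP χ hχP g (χ g * g⁻¹) h2
        (hχZ _ hgD)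
      exact mul_inv_eq_one.mp h3
    have h2 : φ ^ i = 1 := by
      rw [← hχ]
      exact MulEquiv.ext h1
    have h3 : φ ^ (Nat.gcd i (p ^ n)) = 1 := pow_gcd_eq_one.mpr ⟨h2, hφP⟩
    obtain ⟨a, han, ha⟩ := (Nat.dvd_prime_pow hp).mp (Nat.gcd_dvd_right i (p ^ n))
    have han' : a ≤ n - 1 := by
      by_contra hcon
      have hn' : a = n := by omega
      rw [hn'] at ha
      have h4 : p ^ n ∣ i := by
        rw [← ha]
        exact Nat.gcd_dvd_left i (p ^ n)
      have := Nat.le_of_dvd hi0 h4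
      omega
    rw [ha] at h3
    have h5 : ψ = 1 := by
      rw [hψ]
      obtain ⟨b, hb'⟩ := Nat.exists_eq_add_of_le han'
      rw [hb', pow_add, pow_mul, h3, one_pow]
    rw [h5]
    rfl
  exact hb D hDnormal hDtop hDφ hg₀

end GroupLemmas

end Cfsg.Agent.Helper32.HH
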