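-- helper32 library: Hall–Higman's Theorem B in linear form, part 2 (weight-space orbits,
-- restriction to invariant subspaces, the induction), add-only once landed.
import Cfsg.Agent.Helper32.HHCore

set_option autoImplicit false

namespace Cfsg.Agent.Helper32.HH

open Module Cfsg.Agent.Helper63.ProjRep Cfsg.Agent.Helper63.Shult Cfsg.Agent.Helper63.Gross

universe u v w

section Orbit

variable {K : Type u} [Field K] {M : Type v} [AddCommGroup M] [Module K M]
  [FiniteDimensional K M]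

theorem simEig_eq_iInf {ι : Type w} (f : ι → Module.End K M) (hss : ∀ i, (f i).IsSemisimple)
    (χ : ι → K) (v : M) :
    v ∈ (⨅ i, (f i).maxGenEigenspace (χ i)) ↔ v ∈ simEig f χ := by
  simp only [Submodule.mem_iInf, mem_simEig]
  constructor
  · intro h i
    have := h i
    rw [(hss i).isFinitelySemisimple.maxGenEigenspace_eq_eigenspace] at this
    exact Module.End.mem_eigenspace_iff.mp this
  · intro h i
    rw [(hss i).isFinitelySemisimple.maxGenEigenspace_eq_eigenspace]
    exact Module.End.mem_eigenspace_iff.mpr (h i)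

/-- Two distinct operators differ on some simultaneous eigenspace of a commuting semisimple
family. -/
theorem exists_simEig_ne [IsAlgClosed K] {ι : Type w} (f : ι → Module.End K M)
    (hcomm : ∀ i j, f i * f j = f j * f i) (hss : ∀ i, (f i).IsSemisimple)
    (a b : Module.End K M) (hab : a ≠ b) : ∃ χ : ι → K, ∃ w ∈ simEig f χ, a w ≠ b w := by
  have htop : ⨆ χ : ι → K, (⨅ i, (f i).maxGenEigenspace (χ i)) = ⊤ := by
    apply Module.End.iSup_iInf_maxGenEigenspace_eq_top_of_iSup_maxGenEigenspace_eq_top_of_commute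
    · intro i j _
      exact hcomm i j
    · intro i
      exact Module.End.iSup_maxGenEigenspace_eq_top (f i)
  by_contra hcon
  push Not at hcon
  apply hab
  have h1 : LinearMap.eqLocus a b = ⊤ := by
    rw [eq_top_iff, ← htop]
    apply iSup_le
    intro χ w hw
    exact hcon χ w ((simEig_eq_iInf f hss χ w).mp hw)
  exact LinearMap.eqLocus_eq_top.mp h1

/-- **Orbit step.**  Let `f i` be pairwise commuting semisimple operators permuted (via `π`)
by an operator `ξ` with `ξ ^ N = 1`, and `W` a nonzero simultaneous eigenspace.  Then there is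
`t ∣ N` such that `ξ ^ t` maps `W` to itself and the translates `ξ ^ i W`, `i < t`, are
independent. -/
theorem orbit_step {ι : Type w} (f : ι → Module.End K M)
    (hcomm : ∀ i j, f i * f j = f j * f i) (hss : ∀ i, (f i).IsSemisimple)
    (ξ : Module.End K M) (π : ι → ι) (hπ : ∀ i, f i * ξ = ξ * f (π i))
    {N : ℕ} (hN : 0 < N) (hξN : ξ ^ N = 1) (χ : ι → K) (w₀ : M) (hw₀ : w₀ ∈ simEig f χ)
    (hw₀0 : w₀ ≠ 0) :
    ∃ t : ℕ, 0 < t ∧ t ∣ N ∧ (∀ w ∈ simEig f χ, (ξ ^ t) w ∈ simEig f χ) ∧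
      (∀ w ∈ simEig f χ, ∑ i ∈ Finset.range t, (ξ ^ i) w = 0 → w = 0) := by
  classical
  let Mχ : (ι → K) → Submodule K M := fun χ => ⨅ i, (f i).maxGenEigenspace (χ i)
  have hmem : ∀ χ v, v ∈ Mχ χ ↔ v ∈ simEig f χ := fun χ v => simEig_eq_iInf f hss χ v
  have hind : iSupIndep Mχ := by
    apply Module.End.independent_iInf_maxGenEigenspace_of_forall_mapsTo
    intro i j μ
    exact Module.End.mapsTo_maxGenEigenspace_of_comm (hcomm j i) μ
  have hmove : ∀ (χ' : ι → K) v, v ∈ simEig f χ' → ξ v ∈ simEig f (χ' ∘ π) := by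
    intro χ' v hv
    rw [mem_simEig] at hv ⊢
    intro i
    have h1 := LinearMap.congr_fun (hπ i) v
    simp only [Module.End.mul_apply] at h1
    rw [h1, hv (π i), map_smul]
    rfl
  have hmovek : ∀ (k : ℕ) (χ' : ι → K) v, v ∈ simEig f χ' →
      (ξ ^ k) v ∈ simEig f (χ' ∘ π^[k]) := by
    intro k
    induction k with
    | zero =>
      intro χ' v hv
      simpa using hv
    | succ k ih =>
      intro χ' v hv
      have h1 := hmove _ _ (ih χ' v hv)
      rw [pow_succ' ξ, Module.End.mul_apply, Function.iterate_succ]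
      exact h1
  have hSN : χ ∘ π^[N] = χ := by
    have h1 := hmovek N χ w₀ hw₀
    rw [hξN, Module.End.one_apply] at h1
    funext i
    have h2 := (mem_simEig f _ w₀).mp h1 i
    have h3 := (mem_simEig f _ w₀).mp hw₀ i
    rw [h3] at h2
    exact (smul_left_injective K hw₀0 h2).symm
  have hex : ∃ k, 0 < k ∧ χ ∘ π^[k] = χ := ⟨N, hN, hSN⟩
  obtain ⟨s, hsdef⟩ : ∃ s, s = Nat.find hex := ⟨_, rfl⟩
  have hs0 : 0 < s := by
    rw [hsdef]
    exact (Nat.find_spec hex).1
  have hsS : χ ∘ π^[s] = χ := by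
    rw [hsdef]
    exact (Nat.find_spec hex).2
  have hsmin : ∀ k, 0 < k → k < s → χ ∘ π^[k] ≠ χ := by
    intro k hk0 hks hk
    rw [hsdef] at hks
    exact Nat.find_min hex hks ⟨hk0, hk⟩
  have hmul : ∀ c : ℕ, χ ∘ π^[s * c] = χ := by
    intro c
    induction c with
    | zero => simp
    | succ c ih =>
      have h1 : s * (c + 1) = s * c + s := by ring
      rw [h1, Function.iterate_add, ← Function.comp_assoc, ih, hsS]
  have hsN : s ∣ N := by
    apply Nat.dvd_of_mod_eq_zero
    by_contra hb0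
    have hb1 : 0 < N % s := Nat.pos_of_ne_zero hb0
    have hb2 : N % s < s := Nat.mod_lt _ hs0
    apply hsmin (N % s) hb1 hb2
    have h1 : N = s * (N / s) + N % s := (Nat.div_add_mod N s).symm
    have h2 : χ ∘ π^[s * (N / s) + N % s] = χ := by
      rw [← h1]
      exact hSN
    rw [Function.iterate_add, ← Function.comp_assoc, hmul] at h2
    exact h2
  refine ⟨s, hs0, hsN, ?_, ?_⟩
  · intro w hw
    have h1 := hmovek s χ w hw
    rw [hsS] at h1
    exact h1
  · intro w hw hsum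
    by_contra hw0
    let c : Fin s → (ι → K) := fun i => χ ∘ π^[(i : ℕ)]
    have key : ∀ i j : Fin s, (i : ℕ) < (j : ℕ) → c i = c j → False := by
      intro i j hlt hij
      have hj := j.2
      apply hsmin ((i : ℕ) + (s - (j : ℕ))) (by omega) (by omega)
      have h1 : (χ ∘ π^[(i : ℕ)]) ∘ π^[s - (j : ℕ)] = (χ ∘ π^[(j : ℕ)]) ∘ π^[s - (j : ℕ)] := by
        have h2 : χ ∘ π^[(i : ℕ)] = χ ∘ π^[(j : ℕ)] := hij
        rw [h2]
      rw [Function.comp_assoc, Function.comp_assoc, ← Function.iterate_add,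
        ← Function.iterate_add] at h1
      rw [h1]
      have h3 : (j : ℕ) + (s - (j : ℕ)) = s := by omega
      rw [h3]
      exact hsS
    have hcinj : Function.Injective c := by
      intro i j hij
      rcases lt_trichotomy (i : ℕ) (j : ℕ) with h | h | h
      · exact (key i j h hij).elim
      · exact Fin.ext h
      · exact (key j i h hij.symm).elim
    have hind' : iSupIndep (fun i : Fin s => Mχ (c i)) := hind.comp hcinj
    have hvi : ∀ i : Fin s, (ξ ^ (i : ℕ)) w ∈ Mχ (c i) := by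
      intro i
      rw [hmem]
      exact hmovek i χ w hw
    have hvi0 : ∀ i : Fin s, (ξ ^ (i : ℕ)) w ≠ 0 := by
      intro i h0
      apply hw0
      have h1 : ξ ^ ((i : ℕ) * (N - 1)) * ξ ^ (i : ℕ) = 1 := by
        rw [← pow_add]
        have h2 : (i : ℕ) * (N - 1) + (i : ℕ) = N * (i : ℕ) := by
          obtain ⟨N', rfl⟩ : ∃ N', N = N' + 1 := ⟨N - 1, by omega⟩
          simp only [Nat.add_sub_cancel]
          ring
        rw [h2, pow_mul, hξN, one_pow]
      have h2 := LinearMap.congr_fun h1 w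
      rw [Module.End.mul_apply, h0, map_zero, Module.End.one_apply] at h2
      exact h2.symm
    have hli := hind'.linearIndependent (fun i : Fin s => Mχ (c i)) hvi hvi0
    have hsum' : ∑ i : Fin s, (ξ ^ (i : ℕ)) w = 0 := by
      rw [Fin.sum_univ_eq_sum_range (fun i => (ξ ^ i) w) s]
      exact hsum
    have h7 := Fintype.linearIndependent_iff.mp hli (fun _ => 1) (by simpa using hsum')
      ⟨0, hs0⟩
    exact one_ne_zero h7

end Orbit

section Stab

variable {K : Type u} [Field K] {M : Type v} [AddCommGroup M] [Module K M]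

/-- The stabilizer of a subspace in the group of invertible endomorphisms. -/
def stab (W : Submodule K M) : Subgroup (Module.End K M)ˣ where
  carrier := {u | (∀ w ∈ W, (u : Module.End K M) w ∈ W) ∧
    (∀ w ∈ W, ((u⁻¹ : (Module.End K M)ˣ) : Module.End K M) w ∈ W)}
  one_mem' := by
    refine ⟨fun w hw => ?_, fun w hw => ?_⟩
    · simpa using hw
    · simpa using hw
  mul_mem' := by
    intro a b ha hb
    refine ⟨fun w hw => ?_, fun w hw => ?_⟩
    · rw [Units.val_mul, Module.End.mul_apply]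
      exact ha.1 _ (hb.1 w hw)
    · rw [mul_inv_rev, Units.val_mul, Module.End.mul_apply]
      exact hb.2 _ (ha.2 w hw)
  inv_mem' := by
    intro a ha
    refine ⟨ha.2, ?_⟩
    rw [inv_inv]
    exact ha.1

theorem mem_stab {W : Submodule K M} {u : (Module.End K M)ˣ} :
    u ∈ stab W ↔ (∀ w ∈ W, (u : Module.End K M) w ∈ W) ∧
      (∀ w ∈ W, ((u⁻¹ : (Module.End K M)ˣ) : Module.End K M) w ∈ W) := Iff.rfl

theorem mem_stab_of_pow {W : Submodule K M} {u : (Module.End K M)ˣ} {R : ℕ} (hR : 0 < R)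
    (hu : u ^ R = 1) (h : ∀ w ∈ W, (u : Module.End K M) w ∈ W) : u ∈ stab W := by
  refine ⟨h, ?_⟩
  have hinv : u⁻¹ = u ^ (R - 1) := by
    apply inv_eq_of_mul_eq_one_right
    rw [← pow_succ']
    have : R - 1 + 1 = R := by omega
    rw [this, hu]
  rw [hinv]
  have hk : ∀ k : ℕ, ∀ w ∈ W, ((u ^ k : (Module.End K M)ˣ) : Module.End K M) w ∈ W := by
    intro k
    induction k with
    | zero =>
      intro w hw
      simpa using hw
    | succ k ih =>
      intro w hw
      rw [pow_succ, Units.val_mul, Module.End.mul_apply]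
      exact ih _ (h w hw)
  exact hk (R - 1)

/-- Restriction to the subspace, as a homomorphism on the stabilizer. -/
def resStab (W : Submodule K M) : ↥(stab W) →* (Module.End K ↥W)ˣ where
  toFun u :=
    { val := ((u : (Module.End K M)ˣ) : Module.End K M).restrict u.2.1
      inv := (((u : (Module.End K M)ˣ)⁻¹ : (Module.End K M)ˣ) : Module.End K M).restrict u.2.2
      val_inv := by
        apply LinearMap.ext
        intro w
        apply Subtype.ext
        show ((u : (Module.End K M)ˣ) : Module.End K M)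
          ((((u : (Module.End K M)ˣ)⁻¹ : (Module.End K M)ˣ) : Module.End K M) (w : M)) = w
        rw [← Module.End.mul_apply, ← Units.val_mul, mul_inv_cancel]
        rfl
      inv_val := by
        apply LinearMap.ext
        intro w
        apply Subtype.ext
        show (((u : (Module.End K M)ˣ)⁻¹ : (Module.End K M)ˣ) : Module.End K M)
          (((u : (Module.End K M)ˣ) : Module.End K M) (w : M)) = w
        rw [← Module.End.mul_apply, ← Units.val_mul, inv_mul_cancel]
        rfl }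
  map_one' := by
    apply Units.ext
    apply LinearMap.ext
    intro w
    apply Subtype.ext
    rfl
  map_mul' a b := by
    apply Units.ext
    apply LinearMap.ext
    intro w
    apply Subtype.ext
    rfl

theorem resStab_apply (W : Submodule K M) (u : ↥(stab W)) (w : ↥W) :
    ((((resStab W u : (Module.End K ↥W)ˣ) : Module.End K ↥W) w : ↥W) : M) =
      ((u : (Module.End K M)ˣ) : Module.End K M) (w : M) := rfl

theorem conj_pow_mem' {G : Type*} [Group G] (R : Subgroup G) {x : G}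
    (hx : ∀ r ∈ R, x * r * x⁻¹ ∈ R) (i : ℕ) {r : G} (hr : r ∈ R) :
    x ^ i * r * (x ^ i)⁻¹ ∈ R := by
  induction i with
  | zero => simpa using hr
  | succ i ih =>
    have : x ^ (i + 1) * r * (x ^ (i + 1))⁻¹ = x * (x ^ i * r * (x ^ i)⁻¹) * x⁻¹ := by
      rw [pow_succ']
      group
    rw [this]
    exact hx _ ih

end Stab

section Step

/-- The conclusion of Theorem B. -/
def Concl (p q n s : ℕ) (nonab : Prop) : Prop :=
  p ^ n ≤ s ∨ ∃ n₀ m : ℕ, 1 ≤ n₀ ∧ n₀ ≤ n ∧ 1 ≤ m ∧ p ^ n₀ - 1 = q ^ m ∧ nonab ∧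
    p ^ (n - n₀) * (p ^ n₀ - 1) ≤ s

theorem Concl.mono {p q n s : ℕ} {A B : Prop} (h : Concl p q n s A) (hAB : A → B) :
    Concl p q n s B := by
  rcases h with h | ⟨n₀, m, h1, h2, h3, h4, h5, h6⟩
  · exact Or.inl h
  · exact Or.inr ⟨n₀, m, h1, h2, h3, h4, hAB h5, h6⟩

/-- The statement of Theorem B (linear form) for the measure `N`. -/
def Stmt (K : Type u) [Field K] (p q N : ℕ) : Prop :=
  ∀ (M : Type v) [AddCommGroup M] [Module K M] [FiniteDimensional K M]
    (Q : Subgroup (Module.End K M)ˣ) [Finite Q], finrank K M + Nat.card Q = N →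
    IsPGroup q Q → ∀ (x : (Module.End K M)ˣ) (n : ℕ), 1 ≤ n → x ^ (p ^ n) = 1 →
    (∀ g ∈ Q, x * g * x⁻¹ ∈ Q) →
    (∃ g ∈ Q, x ^ (p ^ (n - 1)) * g * (x ^ (p ^ (n - 1)))⁻¹ ≠ g) →
    ∀ s : ℕ, ((x : Module.End K M) - 1) ^ s = 0 →
      Concl p q n s (∃ a ∈ Q, ∃ b ∈ Q, a * b ≠ b * a)

variable {K : Type u} [Field K]

/-- The recursion to a subspace `W` stable under the `q`-group and under `x ^ (p ^ k)`, whose
translates under the powers of `x` are independent. -/
theorem restrict_step {p q : ℕ} [hpF : Fact p.Prime] [CharP K p] {N : ℕ}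
    (ih : ∀ N' < N, Stmt.{u, v} K p q N')
    {M : Type v} [AddCommGroup M] [Module K M] [FiniteDimensional K M]
    (Q : Subgroup (Module.End K M)ˣ) [Finite Q] (hN : finrank K M + Nat.card Q = N)
    (hQ : IsPGroup q Q) (x : (Module.End K M)ˣ) (n : ℕ) (hxP : x ^ (p ^ n) = 1)
    (hxQ : ∀ g ∈ Q, x * g * x⁻¹ ∈ Q)
    (W : Submodule K M) (hWtop : W ≠ ⊤) (hQW : ∀ g ∈ Q, ∀ w ∈ W, (g : Module.End K M) w ∈ W)
    (k : ℕ) (hk : k ≤ n) (hxW : ∀ w ∈ W, ((x : Module.End K M) ^ (p ^ k)) w ∈ W)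
    (horb : ∀ w ∈ W, ∑ i ∈ Finset.range (p ^ k), ((x : Module.End K M) ^ i) w = 0 → w = 0)
    (hnt : ∃ g ∈ Q, ∃ w ∈ W, ((x ^ (p ^ (n - 1)) * g * (x ^ (p ^ (n - 1)))⁻¹ * g⁻¹ :
      (Module.End K M)ˣ) : Module.End K M) w ≠ w)
    (s : ℕ) (hs : ((x : Module.End K M) - 1) ^ s = 0) :
    Concl p q n s (∃ a ∈ Q, ∃ b ∈ Q, a * b ≠ b * a) := by
  have hp : p.Prime := hpF.out
  obtain ⟨g₁, hg₁Q, w₁, hw₁W, hw₁⟩ := hnt
  have hw₁0 : w₁ ≠ 0 := by
    intro h
    apply hw₁
    rw [h, map_zero]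
  obtain ⟨ξ, hξdef⟩ : ∃ ξ : Module.End K M, ξ = (x : Module.End K M) := ⟨_, rfl⟩
  rw [← hξdef] at hxW horb hs
  have htpos : 0 < p ^ k := pow_pos hp.pos k
  rcases Nat.lt_or_ge k n with hkn | hkn
  swap
  · -- `k = n`
    have hkn' : k = n := le_antisymm hk hkn
    left
    have h1 := orbit_bound p ξ W k horb s hs 0 w₁ (by simpa using hw₁W) (by simpa using hw₁0)
    rw [← hkn']
    omega
  · -- `k < n`
    have hQstab : Q ≤ stab W := by
      intro g hg
      exact ⟨hQW g hg, hQW g⁻¹ (Q.inv_mem hg)⟩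
    have hxt : (x ^ (p ^ k)) ^ (p ^ (n - k)) = 1 := by
      rw [← pow_mul, ← pow_add, Nat.add_sub_cancel' hk, hxP]
    have hxtstab : x ^ (p ^ k) ∈ stab W := by
      apply mem_stab_of_pow (pow_pos hp.pos (n - k)) hxt
      intro w hw
      rw [Units.val_pow_eq_pow_val, ← hξdef]
      exact hxW w hw
    let ρW : ↥Q →* (Module.End K ↥W)ˣ := (resStab W).comp (Subgroup.inclusion hQstab)
    have hρW : ∀ g : ↥Q, ρW g = resStab W ⟨g.1, hQstab g.2⟩ := fun g => rfl
    obtain ⟨x', hx'def⟩ : ∃ x' : (Module.End K ↥W)ˣ, x' = resStab W ⟨x ^ (p ^ k), hxtstab⟩ :=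
      ⟨_, rfl⟩
    haveI : Finite ↥ρW.range := Finite.of_surjective ρW.rangeRestrict ρW.rangeRestrict_surjective
    have hcard' : Nat.card ↥ρW.range ≤ Nat.card ↥Q :=
      Nat.card_le_card_of_surjective ρW.rangeRestrict ρW.rangeRestrict_surjective
    have hfin := Submodule.finrank_lt hWtop
    have hxtQ : ∀ g ∈ Q, x ^ (p ^ k) * g * (x ^ (p ^ k))⁻¹ ∈ Q :=
      fun g hg => conj_pow_mem' Q hxQ (p ^ k) hg
    have hconj : ∀ g : ↥Q, x' * ρW g * x'⁻¹ =
        ρW ⟨x ^ (p ^ k) * g * (x ^ (p ^ k))⁻¹, hxtQ g g.2⟩ := by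
      intro g
      rw [hx'def, hρW, hρW, ← map_inv, ← map_mul, ← map_mul]
      rfl
    have hx'P : x' ^ (p ^ (n - k)) = 1 := by
      rw [hx'def, ← map_pow]
      have h1 : (⟨x ^ (p ^ k), hxtstab⟩ : ↥(stab W)) ^ (p ^ (n - k)) = 1 := by
        apply Subtype.ext
        rw [Subgroup.coe_pow]
        exact hxt
      rw [h1, map_one]
    have hy : (x ^ (p ^ k)) ^ (p ^ (n - k - 1)) = x ^ (p ^ (n - 1)) := by
      rw [← pow_mul, ← pow_add]
      congr 2
      omega
    have hystab : x ^ (p ^ (n - 1)) ∈ stab W := by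
      rw [← hy]
      exact (stab W).pow_mem hxtstab _
    have hx'y : x' ^ (p ^ (n - k - 1)) = resStab W ⟨x ^ (p ^ (n - 1)), hystab⟩ := by
      rw [hx'def, ← map_pow]
      congr 1
      apply Subtype.ext
      rw [Subgroup.coe_pow]
      exact hy
    have hne' : ∃ g' ∈ ρW.range,
        x' ^ (p ^ (n - k - 1)) * g' * (x' ^ (p ^ (n - k - 1)))⁻¹ ≠ g' := by
      refine ⟨ρW ⟨g₁, hg₁Q⟩, ⟨_, rfl⟩, ?_⟩
      rw [hx'y, hρW]
      intro h
      apply hw₁
      have h2 : resStab W (⟨x ^ (p ^ (n - 1)), hystab⟩ * ⟨g₁, hQstab hg₁Q⟩ *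
          ⟨x ^ (p ^ (n - 1)), hystab⟩⁻¹ * ⟨g₁, hQstab hg₁Q⟩⁻¹) = 1 := by
        rw [map_mul, map_mul, map_mul, map_inv, map_inv, h, mul_inv_cancel]
      have h3 := congrArg (fun u : (Module.End K ↥W)ˣ =>
        (((u : Module.End K ↥W) ⟨w₁, hw₁W⟩ : ↥W) : M)) h2
      exact h3
    have hx'val : (x' : Module.End K ↥W) = (ξ ^ (p ^ k)).restrict hxW := by
      apply LinearMap.ext
      intro w
      apply Subtype.ext
      rw [hx'def, resStab_apply]
      show ((x ^ (p ^ k) : (Module.End K M)ˣ) : Module.End K M) (w : M) = (ξ ^ (p ^ k)) (w : M)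
      rw [Units.val_pow_eq_pow_val, hξdef]
    have hs' : ((x' : Module.End K ↥W) - 1) ^ (s / p ^ k) = 0 := by
      apply LinearMap.ext
      intro w
      apply Subtype.ext
      rw [hx'val, restrict_sub_one_pow]
      by_contra hne0
      have hmemW : ((ξ ^ (p ^ k) - 1) ^ (s / p ^ k)) (w : M) ∈ W := by
        rw [← restrict_sub_one_pow (ξ ^ (p ^ k)) W hxW]
        exact Subtype.mem _
      have hb := orbit_bound p ξ W k horb s hs (s / p ^ k) (w : M) hmemW hne0
      have hlt := Nat.lt_div_mul_add htpos (a := s)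
      rw [mul_comm] at hlt
      omega
    have hres := ih (finrank K ↥W + Nat.card ↥ρW.range) (by omega) ↥W ρW.range rfl
      (hQ.of_surjective ρW.rangeRestrict ρW.rangeRestrict_surjective) x' (n - k) (by omega)
      hx'P (by
        rintro _ ⟨g, rfl⟩
        rw [hconj]
        exact ⟨_, rfl⟩) (by
        have e1 : n - k - 1 = n - k - 1 := rfl
        exact hne') (s / p ^ k) hs'
    have hdiv : p ^ k * (s / p ^ k) ≤ s := Nat.mul_div_le s (p ^ k)
    rcases hres with h | ⟨n₀, m, h1, h2, h3, h4, h5, h6⟩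
    · left
      calc p ^ n = p ^ k * p ^ (n - k) := by rw [← pow_add, Nat.add_sub_cancel' hk]
        _ ≤ p ^ k * (s / p ^ k) := Nat.mul_le_mul_left _ h
        _ ≤ s := hdiv
    · right
      refine ⟨n₀, m, h1, by omega, h3, h4, ?_, ?_⟩
      · obtain ⟨a', ha', b', hb', hab'⟩ := h5
        obtain ⟨a, rfl⟩ := ha'
        obtain ⟨b, rfl⟩ := hb'
        refine ⟨a, a.2, b, b.2, ?_⟩
        intro h
        apply hab'
        rw [← map_mul, ← map_mul]
        congr 1
        exact Subtype.ext h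
      · calc p ^ (n - n₀) * (p ^ n₀ - 1) = p ^ k * (p ^ (n - k - n₀) * (p ^ n₀ - 1)) := by
              rw [← mul_assoc, ← pow_add]
              congr 2
              omega
          _ ≤ p ^ k * (s / p ^ k) := Nat.mul_le_mul_left _ h6
          _ ≤ s := hdiv

end Step

end Cfsg.Agent.Helper32.HH
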