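-- helper32 library: Hall–Higman's Theorem B in linear form, part 3 (the induction),
-- add-only once landed.
import Cfsg.Agent.Helper32.HHLinear

set_option autoImplicit false

namespace Cfsg.Agent.Helper32.HH

open Module Cfsg.Agent.Helper63.ProjRep Cfsg.Agent.Helper63.Shult Cfsg.Agent.Helper63.Gross

universe u v w

section Fixer

variable {K : Type u} [Field K] {M : Type v} [AddCommGroup M] [Module K M]

/-- The pointwise stabilizer of a subspace in the group of invertible endomorphisms. -/
def fixer (W : Submodule K M) : Subgroup (Module.End K M)ˣ where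
  carrier := {u | ∀ w ∈ W, (u : Module.End K M) w = w}
  one_mem' := by
    intro w _
    rfl
  mul_mem' := by
    intro a b ha hb w hw
    rw [Units.val_mul, Module.End.mul_apply, hb w hw, ha w hw]
  inv_mem' := by
    intro a ha w hw
    have h1 := ha w hw
    conv_lhs => rw [← h1]
    rw [← Module.End.mul_apply, ← Units.val_mul, inv_mul_cancel]
    rfl

theorem mem_fixer {W : Submodule K M} {u : (Module.End K M)ˣ} :
    u ∈ fixer W ↔ ∀ w ∈ W, (u : Module.End K M) w = w := Iff.rfl

end Fixer

section Main

variable {K : Type u} [Field K] [IsAlgClosed K]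

/-- **Hall–Higman's Theorem B, linear form.**  Let `K` be algebraically closed of
characteristic `p`, `Q` a finite `q`-group (`q ≠ p`) of invertible linear maps of a
finite-dimensional space, normalized by an invertible map `x` with `x ^ (p ^ n) = 1` such
that `x ^ (p ^ (n - 1))` does not centralize `Q`.  If `(x - 1) ^ s = 0`, then `p ^ n ≤ s`, or
some `p ^ n₀ - 1` (`1 ≤ n₀ ≤ n`) is a power of `q`, `Q` is not abelian and
`p ^ (n - n₀) * (p ^ n₀ - 1) ≤ s`. -/
theorem hh_core {p q : ℕ} [hpF : Fact p.Prime] [hqF : Fact q.Prime] [CharP K p] (hpq : p ≠ q)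
    (N : ℕ) : Stmt.{u, v} K p q N := by
  induction N using Nat.strong_induction_on with
  | _ N ih =>
    intro M _ _ _ Q _ hN hQ x n hn1 hxP hxQ hne s hs
    classical
    have hp : p.Prime := hpF.out
    have hq : q.Prime := hqF.out
    have hcop : Nat.Coprime p q := (Nat.coprime_primes hp hq).mpr hpq
    have hPpos : 0 < p ^ n := pow_pos hp.pos n
    obtain ⟨g₀, hg₀Q, hg₀⟩ := hne
    have hxN := mem_normalizer_of_pow Q x hPpos hxP hxQ
    obtain ⟨ρ, hρdef⟩ : ∃ ρ : ↥Q →* Module.End K M, ρ = unitsRep Q := ⟨_, rfl⟩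
    have hρinj : Function.Injective ρ := by
      rw [hρdef]
      exact unitsRep_injective Q
    have hρval : ∀ g : ↥Q, ρ g = ((g : (Module.End K M)ˣ) : Module.End K M) := by
      intro g
      rw [hρdef]
      rfl
    obtain ⟨φ, hφdef⟩ : ∃ φ : MulAut ↥Q, φ = conjAut Q x hxN := ⟨_, rfl⟩
    have hφval : ∀ g : ↥Q, ((φ g : ↥Q) : (Module.End K M)ˣ) = x * g * x⁻¹ := by
      intro g
      rw [hφdef]
      rfl
    have hφP : φ ^ (p ^ n) = 1 := by
      rw [hφdef]
      exact conjAut_pow_eq_one Q x hxN hxP
    obtain ⟨ψ, hψdef⟩ : ∃ ψ : MulAut ↥Q, ψ = φ ^ (p ^ (n - 1)) := ⟨_, rfl⟩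
    obtain ⟨y, hydef⟩ : ∃ y : (Module.End K M)ˣ, y = x ^ (p ^ (n - 1)) := ⟨_, rfl⟩
    rw [← hydef] at hg₀
    have hψval : ∀ g : ↥Q, ((ψ g : ↥Q) : (Module.End K M)ˣ) = y * g * y⁻¹ := by
      intro g
      rw [hψdef, hφdef, conjAut_pow_apply, hydef]
    have hψne : ψ ⟨g₀, hg₀Q⟩ ≠ ⟨g₀, hg₀Q⟩ := by
      intro h
      apply hg₀
      have h1 := congrArg Subtype.val h
      rw [hψval] at h1
      exact h1
    have hψp : ψ ^ p = 1 := by
      rw [hψdef, ← pow_mul, ← pow_succ, Nat.sub_add_cancel hn1, hφP]
    have hψφ : ∀ g, ψ (φ g) = φ (ψ g) := by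
      intro g
      rw [hψdef]
      exact aut_pow_comm φ _ g
    obtain ⟨ξ, hξdef⟩ : ∃ ξ : Module.End K M, ξ = (x : Module.End K M) := ⟨_, rfl⟩
    obtain ⟨ξi, hξidef⟩ :
        ∃ ξi : Module.End K M, ξi = ((x⁻¹ : (Module.End K M)ˣ) : Module.End K M) := ⟨_, rfl⟩
    have hξ : ξ * ξi = 1 := by
      rw [hξdef, hξidef, ← Units.val_mul, mul_inv_cancel, Units.val_one]
    have hξ' : ξi * ξ = 1 := by
      rw [hξdef, hξidef, ← Units.val_mul, inv_mul_cancel, Units.val_one]
    have hequiv : ∀ g, ξ * ρ g * ξi = ρ (φ g) := by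
      intro g
      rw [hξdef, hξidef, hρdef, hφdef]
      exact unitsRep_equiv Q x hxN g
    have hξP : ξ ^ (p ^ n) = 1 := by
      rw [hξdef, ← Units.val_pow_eq_pow_val, hxP, Units.val_one]
    have hs' : (ξ - 1) ^ s = 0 := by
      rw [hξdef]
      exact hs
    obtain ⟨kQ, hkQ⟩ := IsPGroup.iff_card.mp hQ
    have hqK : (q : K) ≠ 0 := by
      intro h
      have h1 := (CharP.cast_eq_zero_iff K p q).mp h
      exact hpq ((Nat.prime_dvd_prime_iff_eq hp hq).mp h1)
    have hcardK : ((Nat.card ↥Q : ℕ) : K) ≠ 0 := by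
      rw [hkQ, Nat.cast_pow]
      exact pow_ne_zero _ hqK
    haveI : Nontrivial M := by
      by_contra hM
      rw [not_nontrivial_iff_subsingleton] at hM
      apply hg₀
      apply Units.ext
      apply LinearMap.ext
      intro v
      exact Subsingleton.elim _ _
    by_cases hstep : ∃ P₀ : Subgroup ↥Q, P₀ ≠ ⊤ ∧ (∀ g ∈ P₀, φ g ∈ P₀) ∧ ∃ g ∈ P₀, ψ g ≠ g
    · -- a proper invariant subgroup on which `ψ` acts nontrivially: induction
      obtain ⟨P₀, hP₀top, hP₀φ, g₁, hg₁P, hg₁⟩ := hstep
      have hle : P₀.map Q.subtype ≤ Q := by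
        rintro _ ⟨a, _, rfl⟩
        exact a.2
      haveI : Finite ↥(P₀.map Q.subtype) := Finite.of_injective _
        (Subgroup.inclusion_injective hle)
      have hcard : Nat.card ↥(P₀.map Q.subtype) < Nat.card ↥Q := by
        rw [Subgroup.card_map_of_injective Q.subtype_injective]
        apply lt_of_le_of_ne (Subgroup.card_le_card_group P₀)
        intro h
        exact hP₀top ((Subgroup.card_eq_iff_eq_top P₀).mp h)
      have hres : Concl p q n s (∃ a ∈ P₀.map Q.subtype, ∃ b ∈ P₀.map Q.subtype,
          a * b ≠ b * a) := by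
        refine ih (finrank K M + Nat.card ↥(P₀.map Q.subtype)) (by omega) M (P₀.map Q.subtype)
          rfl (hQ.to_le hle) x n hn1 hxP ?_ ?_ s hs
        · rintro _ ⟨a, ha, rfl⟩
          refine ⟨φ a, hP₀φ a ha, ?_⟩
          exact hφval a
        · refine ⟨g₁, ⟨g₁, hg₁P, rfl⟩, ?_⟩
          intro h
          apply hg₁
          apply Subtype.ext
          rw [hψval, hydef]
          exact h
      exact hres.mono (by
        rintro ⟨a, ha, b, hb, hab⟩
        exact ⟨a, hle ha, b, hle hb, hab⟩)
    · -- minimal situation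
      have hmin : ∀ P₀ : Subgroup ↥Q, P₀ ≠ ⊤ → (∀ g ∈ P₀, φ g ∈ P₀) → ∀ g ∈ P₀, ψ g = g := by
        intro P₀ h1 h2 g hg
        by_contra h3
        exact hstep ⟨P₀, h1, h2, g, hg, h3⟩
      have hTop : ∀ T₀ : Subgroup ↥Q, (∀ g, ψ g * g⁻¹ ∈ T₀) → T₀ = ⊤ := by
        intro T₀ hT₀
        rcases top_or_trivial hcop hQ φ ψ hψp hψφ hmin T₀ hT₀ with h | h
        · exact h
        · exact absurd (h _) hψne
      have hLN : ∀ W : Submodule K M, (∃ g ∈ Q, ∃ w ∈ W, (g : Module.End K M) w ≠ w) →
          ∃ g ∈ Q, ∃ w ∈ W,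
            ((y * g * y⁻¹ * g⁻¹ : (Module.End K M)ˣ) : Module.End K M) w ≠ w := by
        intro W hW
        by_contra hcon
        push Not at hcon
        have h1 := hTop ((fixer W).comap Q.subtype) (by
          intro g
          rw [Subgroup.mem_comap]
          show ((ψ g * g⁻¹ : ↥Q) : (Module.End K M)ˣ) ∈ fixer W
          rw [Subgroup.coe_mul, Subgroup.coe_inv, hψval]
          exact hcon g g.2)
        obtain ⟨g, hg, w, hw, hgw⟩ := hW
        apply hgw
        have h2 : (⟨g, hg⟩ : ↥Q) ∈ (fixer W).comap Q.subtype := by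
          rw [h1]
          exact Subgroup.mem_top _
        exact h2 w hw
      have hR := restrict_step ih Q hN hQ x n hxP hxQ
      by_cases hsc : ∀ z ∈ Subgroup.center ↥Q, ∃ c : K, ρ z = c • (1 : Module.End K M)
      · -- the centre acts by scalars
        have hfixZ : ∀ z ∈ Subgroup.center ↥Q, φ z = z := by
          intro z hz
          obtain ⟨c, hc⟩ := hsc z hz
          apply hρinj
          rw [← hequiv, hc, mul_smul_comm, smul_mul_assoc, mul_one, hξ]
        have hnonab : ∃ a b : ↥Q, a * b ≠ b * a := by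
          by_contra hcon
          push Not at hcon
          apply hψne
          have hz : (⟨g₀, hg₀Q⟩ : ↥Q) ∈ Subgroup.center ↥Q := by
            rw [Subgroup.mem_center_iff]
            intro g
            exact hcon g _
          rw [hψdef]
          exact aut_pow_fix φ _ (hfixZ _ hz) _
        obtain ⟨hcc, hfree⟩ := critical_structure hp hpq hn1 hQ φ hφP
          (by rw [← hψdef]; exact hmin) ⟨_, by rw [← hψdef]; exact hψne⟩ hnonab hfixZ
        let lam : ↥Q → K := fun z =>
          if h : ∃ c : K, ρ z = c • (1 : Module.End K M) then h.choose else 0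
        have H : Hyp ρ lam := by
          refine ⟨hcc, ?_, ?_, ?_⟩
          · intro z hz
            have h := hsc z hz
            have h1 : lam z = h.choose := dif_pos h
            rw [h1]
            exact h.choose_spec
          · intro g hg
            by_contra hcon
            push Not at hcon
            apply hg
            rw [Subgroup.mem_center_iff]
            intro h
            have h1 := hcon h
            rw [← map_one ρ] at h1
            have h2 := hρinj h1
            rw [cm_def] at h2
            have h3 : g * h = h * g := by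
              calc g * h = (g * h * g⁻¹ * h⁻¹) * (h * g) := by group
                _ = h * g := by rw [h2, one_mul]
            exact h3.symm
          · have h1 : (Subgroup.center ↥Q).index ∣ q ^ kQ := by
              rw [← hkQ]
              exact Subgroup.index_dvd_card _
            obtain ⟨j, -, hj⟩ := (Nat.dvd_prime_pow hq).mp h1
            rw [hj, Nat.cast_pow]
            exact pow_ne_zero _ hqK
        have hZtop : Subgroup.center ↥Q ≠ ⊤ := by
          intro h
          obtain ⟨a, b, hab⟩ := hnonab
          apply hab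
          have ha : a ∈ Subgroup.center ↥Q := by
            rw [h]
            exact Subgroup.mem_top a
          exact (Subgroup.mem_center_iff.mp ha b).symm
        by_cases hschur : ∀ e : Module.End K M, (∀ g, ρ g * e = e * ρ g) → ξ * e = e * ξ →
            ∃ c : K, e = c • (1 : Module.End K M)
        · rcases hh_crit H hQ φ ξ ξi hξ hξ' hequiv (p ^ n) hPpos hφP hfree hschur hZtop s hs'
            with h | ⟨m, hm1, hm, hms⟩
          · exact Or.inl h
          · right
            refine ⟨n, m, hn1, le_refl n, hm1, hm, ?_, ?_⟩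
            · obtain ⟨a, b, hab⟩ := hnonab
              exact ⟨a, a.2, b, b.2, fun h => hab (Subtype.ext h)⟩
            · rw [Nat.sub_self, pow_zero, one_mul]
              exact hms
        · push Not at hschur
          obtain ⟨e, heQ, heξ, hesc⟩ := hschur
          obtain ⟨μ, hμ⟩ := Module.End.exists_eigenvalue e
          have hUtop : Module.End.eigenspace e μ ≠ ⊤ := by
            intro h
            apply hesc μ
            apply LinearMap.ext
            intro v
            have hv : v ∈ Module.End.eigenspace e μ := by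
              rw [h]
              exact Submodule.mem_top
            rw [Module.End.mem_eigenspace_iff] at hv
            rw [hv]
            simp
          have hQU : ∀ g ∈ Q, ∀ w ∈ Module.End.eigenspace e μ,
              (g : Module.End K M) w ∈ Module.End.eigenspace e μ := by
            intro g hg w hw
            have h1 := heQ ⟨g, hg⟩
            rw [hρval] at h1
            exact mem_eigenspace_of_comm h1 hw
          have hxU : ∀ w ∈ Module.End.eigenspace e μ,
              ((x : Module.End K M) ^ (p ^ 0)) w ∈ Module.End.eigenspace e μ := by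
            intro w hw
            rw [pow_zero, pow_one, ← hξdef]
            exact mem_eigenspace_of_comm heξ hw
          have hnt := hLN (Module.End.eigenspace e μ) (by
            obtain ⟨a, b, hab⟩ := hnonab
            by_contra hcon
            push Not at hcon
            obtain ⟨w, hw, hw0⟩ := Submodule.exists_mem_ne_zero_of_ne_bot hμ
            have hc := H.scalar _ (hcc a b)
            have h1 := hcon (cm a b).1 (cm a b).2 w hw
            rw [← hρval, hc, LinearMap.smul_apply, Module.End.one_apply] at h1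
            have h2 : lam (cm a b) = 1 := by
              have h3 : (lam (cm a b) - 1) • w = 0 := by
                rw [sub_smul, one_smul, h1, sub_self]
              rcases smul_eq_zero.mp h3 with h | h
              · exact sub_eq_zero.mp h
              · exact absurd h hw0
            rw [h2, one_smul] at hc
            have h3 : cm a b = 1 := hρinj (by rw [hc, map_one])
            apply hab
            rw [cm_def] at h3
            calc a * b = (a * b * a⁻¹ * b⁻¹) * (b * a) := by group
              _ = b * a := by rw [h3, one_mul])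
          exact hR (Module.End.eigenspace e μ) hUtop hQU 0 (Nat.zero_le n) hxU (by
            intro w _ hsum
            simpa using hsum) (by rw [← hydef]; exact hnt) s hs
      · -- a central element is not a scalar: weight spaces of the centre
        push Not at hsc
        obtain ⟨z₀, hz₀, hz₀sc⟩ := hsc
        let f : ↥(Subgroup.center ↥Q) → Module.End K M := fun z => ρ z.1
        have hfcomm : ∀ i j, f i * f j = f j * f i := by
          intro i j
          show ρ i.1 * ρ j.1 = ρ j.1 * ρ i.1
          rw [← map_mul, ← map_mul, Subgroup.mem_center_iff.mp i.2 j.1]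
        have hfss : ∀ i, (f i).IsSemisimple := by
          intro i
          apply isSemisimple_of_pow_eq_one (f i) (Nat.card ↥Q) _ hcardK
          show ρ i.1 ^ Nat.card ↥Q = 1
          rw [← map_pow, pow_card_eq_one', map_one]
        let π : ↥(Subgroup.center ↥Q) → ↥(Subgroup.center ↥Q) :=
          fun z => ⟨φ.symm z.1, map_mem_center φ.symm z.2⟩
        have hπ : ∀ i, f i * ξ = ξ * f (π i) := by
          intro i
          show ρ i.1 * ξ = ξ * ρ (φ.symm i.1)
          have h1 := hequiv (φ.symm i.1)
          rw [MulEquiv.apply_symm_apply] at h1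
          rw [← h1, mul_assoc, hξ', mul_one]
        have hg₀1 : ρ ⟨g₀, hg₀Q⟩ ≠ 1 := by
          intro h
          have h1 : (⟨g₀, hg₀Q⟩ : ↥Q) = 1 := hρinj (by rw [h, map_one])
          apply hψne
          rw [h1, map_one]
        obtain ⟨χ, w₁, hw₁, hw₁ne⟩ := exists_simEig_ne f hfcomm hfss (ρ ⟨g₀, hg₀Q⟩) 1 hg₀1
        have hw₁0 : w₁ ≠ 0 := by
          intro h
          apply hw₁ne
          rw [h, map_zero, map_zero]
        have hWtop : simEig f χ ≠ ⊤ := by
          intro h
          apply hz₀sc (χ ⟨z₀, hz₀⟩)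
          apply LinearMap.ext
          intro v
          have hv : v ∈ simEig f χ := by
            rw [h]
            exact Submodule.mem_top
          have h1 := (mem_simEig f χ v).mp hv ⟨z₀, hz₀⟩
          rw [LinearMap.smul_apply, Module.End.one_apply]
          exact h1
        have hQW : ∀ g ∈ Q, ∀ w ∈ simEig f χ, (g : Module.End K M) w ∈ simEig f χ := by
          intro g hg w hw
          rw [mem_simEig] at hw ⊢
          intro i
          have h1 : ρ i.1 * ρ ⟨g, hg⟩ = ρ ⟨g, hg⟩ * ρ i.1 := by
            rw [← map_mul, ← map_mul, Subgroup.mem_center_iff.mp i.2 ⟨g, hg⟩]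
          have h2 := LinearMap.congr_fun h1 w
          rw [Module.End.mul_apply, Module.End.mul_apply, hρval ⟨g, hg⟩] at h2
          have h3 : ρ i.1 w = χ i • w := hw i
          show ρ i.1 ((g : Module.End K M) w) = χ i • (g : Module.End K M) w
          rw [h2, h3, map_smul]
        obtain ⟨t, ht0, htN, hxW, horb⟩ :=
          orbit_step f hfcomm hfss ξ π hπ hPpos hξP χ w₁ hw₁ hw₁0
        obtain ⟨k, hkn, rfl⟩ := (Nat.dvd_prime_pow hp).mp htN
        exact hR (simEig f χ) hWtop hQW k hkn (by rw [← hξdef]; exact hxW)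
          (by rw [← hξdef]; exact horb)
          (by
            rw [← hydef]
            refine hLN _ ⟨g₀, hg₀Q, w₁, hw₁, ?_⟩
            rw [← hρval ⟨g₀, hg₀Q⟩]
            exact hw₁ne) s hs

/-- **Hall–Higman's Theorem B, linear form** (see `hh_core`). -/
theorem hh_linear {p q : ℕ} [hpF : Fact p.Prime] [hqF : Fact q.Prime] [CharP K p] (hpq : p ≠ q)
    {M : Type v} [AddCommGroup M] [Module K M] [FiniteDimensional K M]
    (Q : Subgroup (Module.End K M)ˣ) [Finite Q] (hQ : IsPGroup q Q)
    (x : (Module.End K M)ˣ) (n : ℕ) (hn : 1 ≤ n) (hxP : x ^ (p ^ n) = 1)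
    (hxQ : ∀ g ∈ Q, x * g * x⁻¹ ∈ Q)
    (hne : ∃ g ∈ Q, x ^ (p ^ (n - 1)) * g * (x ^ (p ^ (n - 1)))⁻¹ ≠ g)
    (s : ℕ) (hs : ((x : Module.End K M) - 1) ^ s = 0) :
    p ^ n ≤ s ∨ ∃ n₀ m : ℕ, 1 ≤ n₀ ∧ n₀ ≤ n ∧ 1 ≤ m ∧ p ^ n₀ - 1 = q ^ m ∧
      (∃ a ∈ Q, ∃ b ∈ Q, a * b ≠ b * a) ∧ p ^ (n - n₀) * (p ^ n₀ - 1) ≤ s :=
  hh_core hpq _ M Q rfl hQ x n hn hxP hxQ hne s hs

end Main

end Cfsg.Agent.Helper32.HH
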