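-- helper32 library: Hall–Higman's Theorem B for a `p`-solvable group of linear maps with
-- `O_p = 1` (base change to the algebraic closure), add-only once landed.
import Cfsg.Agent.Helper32.HHMain
import Cfsg.Agent.Helper32.PPrime
import Cfsg.Agent.Helper63.HHPSol

set_option autoImplicit false

namespace Cfsg.Agent.Helper32.HH

open Module Cfsg TensorProduct

universe u v

section Base

variable {F : Type u} [Field F] {V : Type v} [AddCommGroup V] [Module F V]

/-- The coercion of linear equivalences to endomorphisms, as a monoid homomorphism. -/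
def equivToEnd (F : Type u) [Field F] (V : Type v) [AddCommGroup V] [Module F V] :
    (V ≃ₗ[F] V) →* Module.End F V :=
  (Units.coeHom (Module.End F V)).comp
    (LinearMap.GeneralLinearGroup.generalLinearEquiv F V).symm.toMonoidHom

theorem equivToEnd_apply (g : V ≃ₗ[F] V) : equivToEnd F V g = (g : V →ₗ[F] V) := rfl

/-- Base change of linear equivalences to units of the endomorphism ring over an extension. -/
noncomputable def bcUnits (F : Type u) [Field F] (K : Type u) [Field K] [Algebra F K]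
    (V : Type v) [AddCommGroup V] [Module F V] :
    (V ≃ₗ[F] V) →* (Module.End K (K ⊗[F] V))ˣ :=
  (Units.map (Module.End.baseChangeHom F K V).toMonoidHom).comp
    (LinearMap.GeneralLinearGroup.generalLinearEquiv F V).symm.toMonoidHom

theorem bcUnits_val (K : Type u) [Field K] [Algebra F K] (g : V ≃ₗ[F] V) :
    ((bcUnits F K V g : (Module.End K (K ⊗[F] V))ˣ) : Module.End K (K ⊗[F] V)) =
      Module.End.baseChangeHom F K V (g : V →ₗ[F] V) := rfl

theorem bcUnits_injective (K : Type u) [Field K] [Algebra F K] :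
    Function.Injective (bcUnits F K V) := by
  intro g h hgh
  have h1 := congrArg (fun u : (Module.End K (K ⊗[F] V))ˣ => (u : Module.End K (K ⊗[F] V))) hgh
  simp only [bcUnits_val] at h1
  have h2 : (g : V →ₗ[F] V) = (h : V →ₗ[F] V) :=
    LinearMap.baseChangeHom_injective (R := F) (S := K) (M := V) (N := V) h1
  exact LinearEquiv.toLinearMap_injective h2

end Base

section Group

variable {F : Type u} [Field F] {V : Type v} [AddCommGroup V] [Module F V]
  [FiniteDimensional F V]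

/-- **Hall–Higman's Theorem B**, for an element `x` with `x ^ (p ^ n) = 1 ≠ x ^ (p ^ (n - 1))`
of a finite `p`-solvable group `H` of linear maps in characteristic `p` with `O_p(H) = 1`:
if `(x - 1) ^ s = 0` then `p ^ n ≤ s`, unless some `p ^ n₀ - 1` is a power of a prime `q` for
which the Sylow `q`-subgroups of `H` are not abelian, and then
`p ^ (n - n₀) * (p ^ n₀ - 1) ≤ s`. -/
theorem hh_group {p : ℕ} [hpF : Fact p.Prime] [CharP F p] (H : Subgroup (V ≃ₗ[F] V)) [Finite H]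
    (hsol : Cfsg.IsPSolvable p H) (hOp : Cfsg.pCore p H = ⊥) (x : V ≃ₗ[F] V) (hx : x ∈ H)
    (n : ℕ) (hn1 : 1 ≤ n) (hxP : x ^ (p ^ n) = 1) (hy : x ^ (p ^ (n - 1)) ≠ 1) (s : ℕ)
    (hs : ((x : V →ₗ[F] V) - 1) ^ s = 0) :
    p ^ n ≤ s ∨ ∃ n₀ q m : ℕ, 1 ≤ n₀ ∧ n₀ ≤ n ∧ q.Prime ∧ 1 ≤ m ∧ p ^ n₀ - 1 = q ^ m ∧
      (∀ Q : Sylow q H, ¬ IsMulCommutative Q) ∧ p ^ (n - n₀) * (p ^ n₀ - 1) ≤ s := by
  classical
  have hp : p.Prime := hpF.out
  -- the group side
  obtain ⟨xH, hxH⟩ : ∃ xH : ↥H, xH = ⟨x, hx⟩ := ⟨_, rfl⟩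
  have hxHP : xH ^ (p ^ n) = 1 := by
    rw [hxH]
    apply Subtype.ext
    rw [Subgroup.coe_pow]
    exact hxP
  obtain ⟨yH, hyH⟩ : ∃ yH : ↥H, yH = xH ^ (p ^ (n - 1)) := ⟨_, rfl⟩
  have hyHval : (yH : V ≃ₗ[F] V) = x ^ (p ^ (n - 1)) := by
    rw [hyH, hxH, Subgroup.coe_pow]
  have hyH1 : yH ≠ 1 := by
    intro h
    apply hy
    rw [← hyHval, h]
    rfl
  have hyHp : yH ^ (p ^ 1) = 1 := by
    rw [hyH, pow_one, ← pow_mul, ← pow_succ, Nat.sub_add_cancel hn1, hxHP]
  have hNcop := Cfsg.Agent.Helper32.card_pPrimeCore_coprime' p ↥H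
  have hyN : yH ∉ Cfsg.pPrimeCore p ↥H := by
    intro h
    apply hyH1
    exact Cfsg.Agent.Helper32.eq_one_of_mem_pGroup_of_mem_pPrimeCore
      (Cfsg.Agent.Helper63.HHP.isPGroup_zpowers ⟨1, hyHp⟩) (Subgroup.mem_zpowers yH) h
  have hcent := Cfsg.Agent.Helper63.HHP.centralizer_pPrimeCore_le hsol hOp
  have hyC : yH ∉ Subgroup.centralizer (Cfsg.pPrimeCore p ↥H : Set ↥H) := fun h => hyN (hcent h)
  rw [Subgroup.mem_centralizer_iff] at hyC
  push Not at hyC
  obtain ⟨k, hk, hky⟩ := hyC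
  obtain ⟨q, hqF, R, hRN, hRq, hRx, r, hrR, hry⟩ :=
    Cfsg.Agent.Helper63.HHP.exists_invariant_not_centralized (Cfsg.pPrimeCore p ↥H) hNcop xH
      ⟨n, hxHP⟩ yH k hk hky
  have hq : q.Prime := hqF.out
  have hpq : p ≠ q := by
    intro h
    apply hry
    have hRp : IsPGroup p R := by
      rw [h]
      exact hRq
    have h1 := Cfsg.Agent.Helper32.eq_one_of_mem_pGroup_of_mem_pPrimeCore hRp hrR (hRN hrR)
    rw [h1, one_mul, mul_one]
  -- the linear side
  obtain ⟨β, hβdef⟩ : ∃ β : (V ≃ₗ[F] V) →* (Module.End (AlgebraicClosure F)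
      (AlgebraicClosure F ⊗[F] V))ˣ, β = bcUnits F (AlgebraicClosure F) V := ⟨_, rfl⟩
  have hβinj : Function.Injective β := by
    rw [hβdef]
    exact bcUnits_injective (AlgebraicClosure F)
  have hβval : ∀ g : V ≃ₗ[F] V, ((β g : (Module.End (AlgebraicClosure F)
      (AlgebraicClosure F ⊗[F] V))ˣ) : Module.End (AlgebraicClosure F)
      (AlgebraicClosure F ⊗[F] V)) =
      Module.End.baseChangeHom F (AlgebraicClosure F) V (g : V →ₗ[F] V) := by
    intro g
    rw [hβdef]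
    rfl
  obtain ⟨γ, hγdef⟩ : ∃ γ : ↥H →* (Module.End (AlgebraicClosure F)
      (AlgebraicClosure F ⊗[F] V))ˣ, γ = β.comp H.subtype := ⟨_, rfl⟩
  have hγ : ∀ g : ↥H, γ g = β (g : V ≃ₗ[F] V) := by
    intro g
    rw [hγdef]
    rfl
  have hγinj : Function.Injective γ := by
    intro a b hab
    rw [hγ, hγ] at hab
    exact Subtype.ext (hβinj hab)
  haveI : Finite ↥(R.map γ) := Finite.of_surjective
    (fun a : ↥R => (⟨γ a, Subgroup.mem_map_of_mem γ a.2⟩ : ↥(R.map γ))) (by
      rintro ⟨_, a, ha, rfl⟩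
      exact ⟨⟨a, ha⟩, rfl⟩)
  have hs' : (((γ xH : (Module.End (AlgebraicClosure F) (AlgebraicClosure F ⊗[F] V))ˣ) :
      Module.End (AlgebraicClosure F) (AlgebraicClosure F ⊗[F] V)) - 1) ^ s = 0 := by
    rw [hγ, hβval, hxH]
    have e1 := congrArg (Module.End.baseChangeHom F (AlgebraicClosure F) V) hs
    rw [map_pow, map_sub, map_one, map_zero] at e1
    exact e1
  have hres := hh_linear (K := AlgebraicClosure F) hpq (R.map γ) (hRq.map γ) (γ xH) n hn1
    (by rw [← map_pow, hxHP, map_one])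
    (by
      rintro _ ⟨a, ha, rfl⟩
      rw [← map_inv, ← map_mul, ← map_mul]
      exact Subgroup.mem_map_of_mem γ (hRx a ha))
    (by
      refine ⟨γ r, Subgroup.mem_map_of_mem γ hrR, ?_⟩
      rw [← map_pow, ← hyH, ← map_inv, ← map_mul, ← map_mul]
      intro h
      apply hry
      have h1 := hγinj h
      calc r * yH = (yH * r * yH⁻¹) * yH := by rw [h1]
        _ = yH * r := by group)
    s hs'
  rcases hres with h | ⟨n₀, m, h1, h2, h3, h4, h5, h6⟩
  · exact Or.inl h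
  · right
    refine ⟨n₀, q, m, h1, h2, hq, h3, h4, ?_, h6⟩
    obtain ⟨a', ha', b', hb', hab'⟩ := h5
    obtain ⟨a, haR, rfl⟩ := ha'
    obtain ⟨b, hbR, rfl⟩ := hb'
    have hab : a * b ≠ b * a := by
      intro h
      apply hab'
      rw [← map_mul, ← map_mul, h]
    obtain ⟨S₁, hRS₁⟩ := hRq.exists_le_sylow
    intro Q hQc
    obtain ⟨g, hg⟩ := MulAction.exists_smul_eq ↥H S₁ Q
    have hmem : ∀ c ∈ R, g * c * g⁻¹ ∈ (Q : Subgroup ↥H) := by
      intro c hc
      rw [← hg, Sylow.coe_subgroup_smul]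
      have h7 := Subgroup.smul_mem_pointwise_smul c (MulAut.conj g) (S₁ : Subgroup ↥H)
        (hRS₁ hc)
      rwa [MulAut.smul_def, MulAut.conj_apply] at h7
    have h8 := hQc.is_comm.comm (⟨g * a * g⁻¹, hmem a haR⟩ : ↥(Q : Subgroup ↥H))
      ⟨g * b * g⁻¹, hmem b hbR⟩
    have h9 := congrArg Subtype.val h8
    simp only [Subgroup.coe_mul] at h9
    apply hab
    calc a * b = g⁻¹ * ((g * a * g⁻¹) * (g * b * g⁻¹)) * g := by group
      _ = g⁻¹ * ((g * b * g⁻¹) * (g * a * g⁻¹)) * g := by rw [h9]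
      _ = b * a := by group

end Group

end Cfsg.Agent.Helper32.HH
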