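-- helper32 library: group-theoretic preparations for the critical case of Hall–Higman's
-- Theorem B in a group `Q ⟨x⟩` (Schur's lemma, `q`-elements of `⟨x⟩ Z(G)`, class two).
-- Add-only once landed.
import Cfsg.Agent.Helper32.HHMain
import Cfsg.Agent.Helper32.HHCrit
import Mathlib.GroupTheory.Nilpotent
import Mathlib.GroupTheory.PGroup
import Mathlib.LinearAlgebra.Eigenspace.Triangularizable

set_option autoImplicit false

namespace Cfsg.Agent.Helper32.HH

open scoped commutatorElement

universe u v w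

section Schur

variable {K : Type u} [Field K] {M : Type v} [AddCommGroup M] [Module K M]

/-- Schur's lemma for an irreducible family of operators over an algebraically closed field. -/
theorem schur_scalar [IsAlgClosed K] [FiniteDimensional K M] [Nontrivial M] {Q : Type w}
    (ρ : Q → Module.End K M)
    (hirr : ∀ W : Submodule K M, (∀ g : Q, Submodule.map (ρ g) W ≤ W) → W = ⊥ ∨ W = ⊤)
    (e : Module.End K M) (he : ∀ g : Q, ρ g * e = e * ρ g) :
    ∃ c : K, e = c • (1 : Module.End K M) := by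
  obtain ⟨c, hc⟩ := Module.End.exists_eigenvalue e
  have hne : Module.End.eigenspace e c ≠ ⊥ := Module.End.hasEigenvalue_iff.mp hc
  have hinv : ∀ g : Q, Submodule.map (ρ g) (Module.End.eigenspace e c) ≤
      Module.End.eigenspace e c := by
    rintro g _ ⟨w, hw, rfl⟩
    have hw' : e w = c • w := Module.End.mem_eigenspace_iff.mp hw
    apply Module.End.mem_eigenspace_iff.mpr
    have h1 : e (ρ g w) = ρ g (e w) := by
      rw [← Module.End.mul_apply, ← he g, Module.End.mul_apply]
    rw [h1, hw', map_smul]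
  rcases hirr _ hinv with h | h
  · exact absurd h hne
  · refine ⟨c, ?_⟩
    apply LinearMap.ext
    intro v
    have hv : v ∈ Module.End.eigenspace e c := by
      rw [h]
      exact Submodule.mem_top
    rw [LinearMap.smul_apply, Module.End.one_apply]
    exact Module.End.mem_eigenspace_iff.mp hv

end Schur

section GroupLemmas

variable {G : Type u} [Group G]

/-- An element of `q`-power order in `⟨x⟩ Z(G)`, `x` a `p`-element, is central. -/
theorem mem_center_of_mem_zpowers_sup_center {p q : ℕ} (hp : p.Prime) (hq : q.Prime)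
    (hpq : p ≠ q) (x : G) (hx : IsPGroup p (Subgroup.zpowers x)) (g : G) (k : ℕ)
    (hgq : g ^ q ^ k = 1) (hg : g ∈ Subgroup.zpowers x ⊔ Subgroup.center G) :
    g ∈ Subgroup.center G := by
  obtain ⟨a, ha, z, hz, rfl⟩ := Subgroup.mem_sup_of_normal_right.mp hg
  have hcomm : Commute a z := (Subgroup.mem_center_iff.mp hz a)
  have h1 : a ^ q ^ k * z ^ q ^ k = 1 := by
    rw [← hcomm.mul_pow]
    exact hgq
  have h2 : a ^ q ^ k ∈ Subgroup.center G := by
    have h3 : a ^ q ^ k = (z ^ q ^ k)⁻¹ := eq_inv_of_mul_eq_one_left h1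
    rw [h3]
    exact Subgroup.inv_mem _ (Subgroup.pow_mem _ hz _)
  obtain ⟨j, hj⟩ := hx ⟨a, ha⟩
  have h4 : a ^ p ^ j = 1 := congrArg Subtype.val hj
  have hcop : IsCoprime ((q ^ k : ℕ) : ℤ) ((p ^ j : ℕ) : ℤ) := by
    rw [Nat.isCoprime_iff_coprime]
    exact Nat.Coprime.pow _ _ ((Nat.coprime_primes hq hp).mpr hpq.symm)
  obtain ⟨u, v, huv⟩ := hcop
  have h5 : a = (a ^ q ^ k) ^ u := by
    have h6 : a ^ (u * ((q ^ k : ℕ) : ℤ) + v * ((p ^ j : ℕ) : ℤ)) = a := by
      rw [huv, zpow_one]
    rw [zpow_add, mul_comm u, mul_comm v, zpow_mul, zpow_mul, zpow_natCast, zpow_natCast, h4,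
      one_zpow, mul_one] at h6
    exact h6.symm
  have h7 : a ∈ Subgroup.center G := by
    rw [h5]
    exact Subgroup.zpow_mem _ h2 _
  exact Subgroup.mul_mem _ h7 hz

/-- If every abelian normal subgroup of `G` inside the normal `q`-subgroup `Q` is central in
`G`, then `Q` has class at most two. -/
theorem class_two_of_abelian_normal_central [Finite G] {q : ℕ} [hqF : Fact q.Prime]
    (Q : Subgroup G) [hQn : Q.Normal] (hQ : IsPGroup q Q)
    (hB : ∀ A : Subgroup G, A ≤ Q → A.Normal → (∀ a ∈ A, ∀ b ∈ A, a * b = b * a) →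
      A ≤ Subgroup.center G) : ⁅⁅Q, Q⁆, Q⁆ = ⊥ := by
  classical
  haveI : Group.IsNilpotent ↥Q := hQ.isNilpotent
  have hex : ∃ n, Q.lowerCentralSeries n = ⊥ :=
    (Subgroup.isNilpotent_iff_lowerCentralSeries Q).mp inferInstance
  have hmin : ∀ m, m < Nat.find hex → Q.lowerCentralSeries m ≠ ⊥ := fun m hm => Nat.find_min hex hm
  have hc := Nat.find_spec hex
  by_cases hle : Nat.find hex ≤ 2
  · have h1 := Q.lowerCentralSeries_antitone hle
    rw [hc, le_bot_iff] at h1
    exact h1
  · exfalso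
    push Not at hle
    obtain ⟨c, hcdef⟩ : ∃ c, Nat.find hex = c + 3 := ⟨Nat.find hex - 3, by omega⟩
    rw [hcdef] at hc hmin
    -- `A = L (c + 1)`
    have hA2 : ⁅⁅Q.lowerCentralSeries (c + 1), Q⁆, Q⁆ = ⊥ := hc
    have hrot : ⁅⁅Q, Q⁆, Q.lowerCentralSeries (c + 1)⁆ = ⊥ := by
      apply Subgroup.commutator_commutator_eq_bot_of_rotate
      · rw [Subgroup.commutator_comm Q (Q.lowerCentralSeries (c + 1))]
        exact hA2
      · exact hA2
    have hAle1 : Q.lowerCentralSeries (c + 1) ≤ ⁅Q, Q⁆ :=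
      Q.lowerCentralSeries_antitone (by omega : 1 ≤ c + 1)
    have hAA : ⁅Q.lowerCentralSeries (c + 1), Q.lowerCentralSeries (c + 1)⁆ = ⊥ := by
      rw [eq_bot_iff, ← hrot]
      exact Subgroup.commutator_mono hAle1 le_rfl
    have hAab : ∀ a ∈ Q.lowerCentralSeries (c + 1), ∀ b ∈ Q.lowerCentralSeries (c + 1),
        a * b = b * a := by
      intro a ha b hb
      have h1 := Subgroup.commutator_eq_bot_iff_le_centralizer.mp hAA ha
      exact (Subgroup.mem_centralizer_iff.mp h1 b hb).symm
    have hAcen := hB _ (Q.lowerCentralSeries_le_self (c + 1)) inferInstance hAab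
    have hbot : Q.lowerCentralSeries (c + 2) = ⊥ := by
      show ⁅Q.lowerCentralSeries (c + 1), Q⁆ = ⊥
      rw [Subgroup.commutator_eq_bot_iff_le_centralizer]
      exact hAcen.trans (Subgroup.center_le_centralizer _)
    exact hmin (c + 2) (by omega) hbot

end GroupLemmas

end Cfsg.Agent.Helper32.HH
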