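-- helper32 library: consequence of Hall–Higman's Theorem B for an element of order `p` acting
-- on an elementary abelian normal `p`-subgroup (non-Fermat odd `p`): some "norm" product
-- `a · x a x⁻¹ ⋯ x^(p-1) a x^(-(p-1))` is nontrivial.  Add-only once landed.
import Cfsg.Agent.Helper32.HHMain
import Cfsg.Agent.Helper32.PPrime
import Cfsg.Agent.Helper32.PSolvable
import Cfsg.Agent.Helper63.HHPSol
import Cfsg.Agent.Helper63.AddCharRep

set_option autoImplicit false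

namespace Cfsg.Agent.Helper32.HH

open Cfsg Cfsg.Agent.Helper63.AddCharRep

universe u

section CProd

variable {E : Type u} [Group E]

/-- The ordered product `a · x a x⁻¹ ⋯ x^(k-1) a x^(-(k-1))`. -/
def cprod (x a : E) : ℕ → E
  | 0 => 1
  | k + 1 => cprod x a k * (x ^ k * a * (x ^ k)⁻¹)

theorem cprod_zero (x a : E) : cprod x a 0 = 1 := rfl

theorem cprod_succ (x a : E) (k : ℕ) :
    cprod x a (k + 1) = cprod x a k * (x ^ k * a * (x ^ k)⁻¹) := rfl

theorem mul_pow_eq_cprod (x a : E) (k : ℕ) : (a * x) ^ k = cprod x a k * x ^ k := by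
  induction k with
  | zero => simp [cprod_zero]
  | succ k ih =>
    rw [pow_succ, ih, cprod_succ, pow_succ]
    group

theorem cprod_mem (V : Subgroup E) [hV : V.Normal] (x : E) {a : E} (ha : a ∈ V) (k : ℕ) :
    cprod x a k ∈ V := by
  induction k with
  | zero => exact V.one_mem
  | succ k ih => exact V.mul_mem ih (hV.conj_mem a ha _)

theorem map_cprod {E' : Type*} [Group E'] (f : E →* E') (x a : E) (k : ℕ) :
    f (cprod x a k) = cprod (f x) (f a) k := by
  induction k with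
  | zero => simp [cprod_zero]
  | succ k ih => rw [cprod_succ, cprod_succ, map_mul, ih, map_mul, map_mul, map_inv, map_pow]

end CProd

section NormNe

variable {E : Type u} [Group E] [Finite E]

/-- Auxiliary form of `exists_cprod_ne_one` (with `x⁻¹`). -/
theorem exists_cprod_inv_ne_one {p : ℕ} [hpF : Fact p.Prime] (hp2 : p ≠ 2)
    (hnf : ¬ ∃ k : ℕ, p = 2 ^ k + 1) (hE : Cfsg.IsPSolvable p E)
    (V : Subgroup E) [hVn : V.Normal] (hVc : ∀ a ∈ V, ∀ b ∈ V, a * b = b * a)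
    (hVe : ∀ a ∈ V, a ^ p = 1) (hCV : ∀ g : E, (∀ v ∈ V, g * v = v * g) → g ∈ V)
    (hVmax : ∀ N : Subgroup E, N.Normal → IsPGroup p N → N ≤ V)
    (x : E) (hxV : x ∉ V) (hxp : x ^ p ∈ V) : ∃ a ∈ V, cprod x⁻¹ a p ≠ 1 := by
  classical
  have hp : p.Prime := hpF.out
  -- the quotient `E ⧸ V`
  have hsolq : Cfsg.IsPSolvable p (E ⧸ V) := Cfsg.Agent.Helper32.isPSolvable_quotient hp hE V
  have hOp : Cfsg.pCore p (E ⧸ V) = ⊥ := by
    have hN : IsPGroup p (Cfsg.pCore p (E ⧸ V)) := Cfsg.Agent.Helper24.isPGroup_pCore p _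
    have hM : IsPGroup p ((Cfsg.pCore p (E ⧸ V)).comap (QuotientGroup.mk' V)) := by
      rintro ⟨m, hm⟩
      obtain ⟨k, hk⟩ := hN ⟨QuotientGroup.mk' V m, hm⟩
      have h1 : (QuotientGroup.mk' V m) ^ p ^ k = 1 := congrArg Subtype.val hk
      rw [← map_pow] at h1
      have h2 : m ^ p ^ k ∈ V := (QuotientGroup.eq_one_iff _).mp h1
      refine ⟨k + 1, Subtype.ext ?_⟩
      show m ^ p ^ (k + 1) = 1
      rw [pow_succ, pow_mul]
      exact hVe _ h2
    have hle := hVmax _ inferInstance hM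
    rw [eq_bot_iff]
    intro y hy
    obtain ⟨g, rfl⟩ := QuotientGroup.mk'_surjective V y
    have hg : g ∈ V := hle hy
    exact Subgroup.mem_bot.mpr ((QuotientGroup.eq_one_iff g).mpr hg)
  obtain ⟨xb, hxb⟩ : ∃ xb : E ⧸ V, xb = QuotientGroup.mk' V x := ⟨_, rfl⟩
  have hxb1 : xb ≠ 1 := by
    rw [hxb]
    intro h
    exact hxV ((QuotientGroup.eq_one_iff x).mp h)
  have hxbp : xb ^ p ^ 1 = 1 := by
    rw [hxb, pow_one, ← map_pow]
    exact (QuotientGroup.eq_one_iff _).mpr hxp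
  have hNcop := Cfsg.Agent.Helper32.card_pPrimeCore_coprime' p (E ⧸ V)
  have hxbN : xb ∉ Cfsg.pPrimeCore p (E ⧸ V) := by
    intro h
    apply hxb1
    exact Cfsg.Agent.Helper32.eq_one_of_mem_pGroup_of_mem_pPrimeCore
      (Cfsg.Agent.Helper63.HHP.isPGroup_zpowers ⟨1, hxbp⟩) (Subgroup.mem_zpowers xb) h
  have hcent := Cfsg.Agent.Helper63.HHP.centralizer_pPrimeCore_le hsolq hOp
  have hxbC : xb ∉ Subgroup.centralizer (Cfsg.pPrimeCore p (E ⧸ V) : Set (E ⧸ V)) :=
    fun h => hxbN (hcent h)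
  rw [Subgroup.mem_centralizer_iff] at hxbC
  push Not at hxbC
  obtain ⟨k, hk, hky⟩ := hxbC
  obtain ⟨q, hqF, R, hRN, hRq, hRx, r, hrR, hry⟩ :=
    Cfsg.Agent.Helper63.HHP.exists_invariant_not_centralized (Cfsg.pPrimeCore p (E ⧸ V)) hNcop xb
      ⟨1, hxbp⟩ xb k hk hky
  have hq : q.Prime := hqF.out
  have hpq : p ≠ q := by
    intro h
    apply hry
    have hRp : IsPGroup p R := by
      rw [h]
      exact hRq
    have h1 := Cfsg.Agent.Helper32.eq_one_of_mem_pGroup_of_mem_pPrimeCore hRp hrR (hRN hrR)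
    rw [h1, one_mul, mul_one]
  -- the representation on the additive characters of `V`
  obtain ⟨K, _, _, _, -⟩ : ∃ (K : Type) (_ : Field K) (_ : IsAlgClosed K) (_ : CharP K p),
      True := ⟨AlgebraicClosure (ZMod p), inferInstance, inferInstance, inferInstance, trivial⟩
  have hcomm : ∀ a b : ↥V, a * b = b * a := fun a b => Subtype.ext (hVc a a.2 b b.2)
  have hexp : ∀ a : ↥V, a ^ p = 1 := by
    intro a
    apply Subtype.ext
    rw [Subgroup.coe_pow]
    exact hVe a a.2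
  have hNtop : ∀ g : E, g ∈ Subgroup.normalizer (V : Set E) := by
    intro g
    rw [Subgroup.normalizer_eq_top_iff.mpr hVn]
    exact Subgroup.mem_top g
  let j : E →* ↥(Subgroup.normalizer (V : Set E)) := (MonoidHom.id E).codRestrict _ hNtop
  have hj : ∀ g : E, ((j g : ↥(Subgroup.normalizer (V : Set E))) : E) = g := fun g => rfl
  obtain ⟨ρ, hρdef⟩ : ∃ ρ : E →* (Module.End K ↥(addChar V K))ˣ,
      ρ = ((rho V K).comp j).toHomUnits := ⟨_, rfl⟩
  have hρrho : ∀ g : E, ((ρ g : (Module.End K ↥(addChar V K))ˣ) : Module.End K ↥(addChar V K)) =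
      rho V K (j g) := by
    intro g
    rw [hρdef]
    rfl
  have hρker : ∀ g : E, ρ g = 1 → g ∈ V := by
    intro g hg
    have h1 : rho V K (j g) = 1 := by
      rw [← hρrho, hg]
      rfl
    apply hCV
    intro v hv
    have h2 := commute_of_rho_eq_one hcomm hexp (j g) h1 ⟨v, hv⟩
    rw [hj] at h2
    exact h2.symm
  have hρV : ∀ g ∈ V, ρ g = 1 := by
    intro g hg
    apply Units.ext
    rw [hρrho]
    apply LinearMap.ext
    intro f
    apply Subtype.ext
    funext a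
    rw [rho_apply]
    have h1 : conjV (j g) a = a := by
      apply Subtype.ext
      rw [conjV_coe, hj, mul_assoc, hVc a a.2 g hg, ← mul_assoc, inv_mul_cancel, one_mul]
    rw [h1]
    rfl
  haveI : Finite ↥((R.comap (QuotientGroup.mk' V)).map ρ) := Finite.of_surjective
    (fun a : ↥(R.comap (QuotientGroup.mk' V)) =>
      (⟨ρ a, Subgroup.mem_map_of_mem ρ a.2⟩ : ↥((R.comap (QuotientGroup.mk' V)).map ρ))) (by
      rintro ⟨_, a, ha, rfl⟩
      exact ⟨⟨a, ha⟩, rfl⟩)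
  have hQ : IsPGroup q ↥((R.comap (QuotientGroup.mk' V)).map ρ) := by
    rintro ⟨_, g, hg, rfl⟩
    obtain ⟨k, hk⟩ := hRq ⟨QuotientGroup.mk' V g, hg⟩
    have h1 : (QuotientGroup.mk' V g) ^ q ^ k = 1 := congrArg Subtype.val hk
    rw [← map_pow] at h1
    have h2 : g ^ q ^ k ∈ V := (QuotientGroup.eq_one_iff _).mp h1
    refine ⟨k, Subtype.ext ?_⟩
    show ρ g ^ q ^ k = 1
    rw [← map_pow]
    exact hρV _ h2
  have hx'P : ρ x ^ p ^ 1 = 1 := by
    rw [pow_one, ← map_pow]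
    exact hρV _ hxp
  have hx'Q : ∀ g ∈ (R.comap (QuotientGroup.mk' V)).map ρ,
      ρ x * g * (ρ x)⁻¹ ∈ (R.comap (QuotientGroup.mk' V)).map ρ := by
    rintro _ ⟨g, hg, rfl⟩
    rw [← map_inv, ← map_mul, ← map_mul]
    apply Subgroup.mem_map_of_mem
    show QuotientGroup.mk' V (x * g * x⁻¹) ∈ R
    rw [map_mul, map_mul, map_inv, ← hxb]
    exact hRx _ hg
  have hne' : ∃ g ∈ (R.comap (QuotientGroup.mk' V)).map ρ,
      ρ x ^ p ^ (1 - 1) * g * (ρ x ^ p ^ (1 - 1))⁻¹ ≠ g := by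
    obtain ⟨r', rfl⟩ := QuotientGroup.mk'_surjective V r
    refine ⟨ρ r', Subgroup.mem_map_of_mem ρ hrR, ?_⟩
    rw [Nat.sub_self, pow_zero, pow_one]
    intro h
    apply hry
    have h1 : ρ (x * r' * x⁻¹ * r'⁻¹) = 1 := by
      rw [map_mul, map_mul, map_mul, map_inv, map_inv, h, mul_inv_cancel]
    have h2 := hρker _ h1
    have h3 : xb * QuotientGroup.mk' V r' * xb⁻¹ * (QuotientGroup.mk' V r')⁻¹ = 1 := by
      rw [hxb, ← map_inv, ← map_mul, ← map_mul, ← map_inv, ← map_mul]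
      exact (QuotientGroup.eq_one_iff _).mpr h2
    calc QuotientGroup.mk' V r' * xb
        = (xb * QuotientGroup.mk' V r' * xb⁻¹ * (QuotientGroup.mk' V r')⁻¹)⁻¹ *
            (xb * QuotientGroup.mk' V r') := by group
      _ = xb * QuotientGroup.mk' V r' := by rw [h3, inv_one, one_mul]
  -- Theorem B
  have hkey : (((ρ x : (Module.End K ↥(addChar V K))ˣ) : Module.End K ↥(addChar V K)) - 1) ^
      (p - 1) ≠ 0 := by
    intro hs
    rcases hh_linear hpq _ hQ (ρ x) 1 le_rfl hx'P hx'Q hne' (p - 1) hs with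
      h | ⟨n₀, m, h1, h2, h3, h4, -, -⟩
    · rw [pow_one] at h
      have := hp.pos
      omega
    · have hn₀ : n₀ = 1 := le_antisymm h2 h1
      rw [hn₀, pow_one] at h4
      apply hnf
      have hodd : Odd p := hp.odd_of_ne_two hp2
      have heven : Even (q ^ m) := by
        rw [← h4]
        exact Nat.Odd.sub_odd hodd odd_one
      have hq2 : q = 2 := (Nat.Prime.even_iff hq).mp (Nat.even_pow.mp heven).1
      refine ⟨m, ?_⟩
      rw [hq2] at h4
      have := hp.pos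
      omega
  have hsum := sub_one_pow_pred p ((ρ x : (Module.End K ↥(addChar V K))ˣ) :
    Module.End K ↥(addChar V K)) 1
  rw [pow_one] at hsum
  rw [hsum] at hkey
  -- the formula for the sum of the powers
  have hpow : ∀ (i : ℕ) (f : ↥(addChar V K)) (a : ↥V),
      (((((ρ x : (Module.End K ↥(addChar V K))ˣ) : Module.End K ↥(addChar V K)) ^ i) f :
        ↥(addChar V K)) : ↥V → K) a =
      (f : ↥V → K) ⟨x⁻¹ ^ i * a * (x⁻¹ ^ i)⁻¹, hVn.conj_mem a a.2 _⟩ := by
    intro i f a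
    rw [← Units.val_pow_eq_pow_val, ← map_pow, hρrho, rho_apply]
    have h1 : conjV (j (x ^ i)) a = ⟨x⁻¹ ^ i * a * (x⁻¹ ^ i)⁻¹, hVn.conj_mem a a.2 _⟩ := by
      apply Subtype.ext
      show (x ^ i)⁻¹ * (a : E) * x ^ i = x⁻¹ ^ i * (a : E) * (x⁻¹ ^ i)⁻¹
      rw [inv_pow, inv_inv]
    rw [h1]
  have hform : ∀ (k : ℕ) (f : ↥(addChar V K)) (a : ↥V),
      (((∑ i ∈ Finset.range k,
        ((ρ x : (Module.End K ↥(addChar V K))ˣ) : Module.End K ↥(addChar V K)) ^ i) f :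
        ↥(addChar V K)) : ↥V → K) a =
      (f : ↥V → K) ⟨cprod x⁻¹ (a : E) k, cprod_mem V x⁻¹ a.2 k⟩ := by
    intro k
    induction k with
    | zero =>
      intro f a
      rw [Finset.sum_range_zero]
      have h1 : (⟨cprod x⁻¹ (a : E) 0, cprod_mem V x⁻¹ a.2 0⟩ : ↥V) = 1 := rfl
      rw [h1, addChar_one]
      rfl
    | succ k ih =>
      intro f a
      rw [Finset.sum_range_succ, LinearMap.add_apply, Submodule.coe_add, Pi.add_apply, ih, hpow]
      have h1 : (⟨cprod x⁻¹ (a : E) (k + 1), cprod_mem V x⁻¹ a.2 (k + 1)⟩ : ↥V) =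
          ⟨cprod x⁻¹ (a : E) k, cprod_mem V x⁻¹ a.2 k⟩ *
            ⟨x⁻¹ ^ k * a * (x⁻¹ ^ k)⁻¹, hVn.conj_mem a a.2 _⟩ := rfl
      rw [h1, f.2]
  by_contra hall
  push Not at hall
  apply hkey
  apply LinearMap.ext
  intro f
  apply Subtype.ext
  funext a
  rw [hform p f a]
  have h1 : (⟨cprod x⁻¹ (a : E) p, cprod_mem V x⁻¹ a.2 p⟩ : ↥V) = 1 :=
    Subtype.ext (hall a a.2)
  rw [h1, addChar_one]
  rfl

/-- **Consequence of Theorem B.**  Let `p` be an odd prime which is not a Fermat prime, `E` a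
finite `p`-solvable group and `V` a normal elementary abelian `p`-subgroup containing its
centralizer and every normal `p`-subgroup of `E`.  If `x ∉ V` and `x ^ p ∈ V`, then some
product `a · x a x⁻¹ ⋯ x^(p-1) a x^(-(p-1))` with `a ∈ V` is nontrivial. -/
theorem exists_cprod_ne_one {p : ℕ} [hpF : Fact p.Prime] (hp2 : p ≠ 2)
    (hnf : ¬ ∃ k : ℕ, p = 2 ^ k + 1) (hE : Cfsg.IsPSolvable p E)
    (V : Subgroup E) [hVn : V.Normal] (hVc : ∀ a ∈ V, ∀ b ∈ V, a * b = b * a)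
    (hVe : ∀ a ∈ V, a ^ p = 1) (hCV : ∀ g : E, (∀ v ∈ V, g * v = v * g) → g ∈ V)
    (hVmax : ∀ N : Subgroup E, N.Normal → IsPGroup p N → N ≤ V)
    (x : E) (hxV : x ∉ V) (hxp : x ^ p ∈ V) : ∃ a ∈ V, cprod x a p ≠ 1 := by
  have h := exists_cprod_inv_ne_one hp2 hnf hE V hVc hVe hCV hVmax x⁻¹
    (fun h => hxV (by simpa using V.inv_mem h))
    (by
      rw [inv_pow]
      exact V.inv_mem hxp)
  rwa [inv_inv] at h

end NormNe

end Cfsg.Agent.Helper32.HH
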