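-- helper32 library: the cyclic `ZMod p`-submodule generated by a vector with nonzero "norm"
-- under an operator of order `p`, and its translation to an abelian normal subgroup of
-- exponent `p`.  Add-only once landed.
import Cfsg.Agent.Helper32.WreathA
import Mathlib.Algebra.Module.ZMod

set_option autoImplicit false

namespace Cfsg.Agent.Helper32.HH

open Cfsg

universe u

section LinearWreath

variable {p : ℕ} [hpF : Fact p.Prime] {A : Type u} [AddCommGroup A] [Module (ZMod p) A]

/-- Independence of `a, νa, …, ν^(p-1) a` (shifted by `m`) for a nilpotent `ν` with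
`ν^(p-1) a ≠ 0`. -/
theorem nilp_indep (ν : Module.End (ZMod p) A) (hν : ν ^ p = 0) (a : A)
    (ha : (ν ^ (p - 1)) a ≠ 0) (m : ℕ) (c : Fin p → ZMod p)
    (h : ∑ i : Fin p, c i • (ν ^ ((i : ℕ) + m)) a = 0) :
    ∀ i : Fin p, (i : ℕ) + m < p → c i = 0 := by
  have hp : p.Prime := hpF.out
  have key : ∀ n : ℕ, ∀ i : Fin p, (i : ℕ) = n → (i : ℕ) + m < p → c i = 0 := by
    intro n
    induction n using Nat.strong_induction_on with
    | _ n ih =>
      intro i hin him
      have h1 := congrArg (ν ^ (p - 1 - n - m)) h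
      rw [map_sum, map_zero] at h1
      rw [Finset.sum_eq_single i] at h1
      · rw [map_smul, ← Module.End.mul_apply, ← pow_add] at h1
        have h2 : p - 1 - n - m + ((i : ℕ) + m) = p - 1 := by omega
        rw [h2] at h1
        exact (smul_eq_zero.mp h1).resolve_right ha
      · intro j _ hji
        rw [map_smul, ← Module.End.mul_apply, ← pow_add]
        have hne : (j : ℕ) ≠ (i : ℕ) := fun h => hji (Fin.ext h)
        rcases lt_or_gt_of_ne hne with hlt | hgt
        · rw [ih (j : ℕ) (by omega) j rfl (by omega), zero_smul]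
        · have h2 : p - 1 - n - m + ((j : ℕ) + m) = p + ((j : ℕ) - n - 1) := by omega
          rw [h2, pow_add, hν, zero_mul, LinearMap.zero_apply, smul_zero]
      · intro hi
        exact absurd (Finset.mem_univ i) hi
  intro i hi
  exact key i i rfl hi

/-- Nilpotent form of `exists_cyclic_submodule`. -/
theorem exists_cyclic_submodule_aux (ν : Module.End (ZMod p) A) (hν : ν ^ p = 0) (a : A)
    (ha : (ν ^ (p - 1)) a ≠ 0) :
    ∃ S : Submodule (ZMod p) A, (∀ s ∈ S, ν s ∈ S) ∧ Nat.card S = p ^ p ∧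
      Nat.card {s : A // s ∈ S ∧ ν s = 0} = p ∧
      ∀ z ∈ S, ν z = 0 → ∃ b ∈ S, (ν ^ (p - 1)) b = z := by
  classical
  have hp : p.Prime := hpF.out
  obtain ⟨e, hedef⟩ : ∃ e : (Fin p → ZMod p) →ₗ[ZMod p] A,
      e = Fintype.linearCombination (ZMod p) (fun i : Fin p => (ν ^ (i : ℕ)) a) := ⟨_, rfl⟩
  have he : ∀ c, e c = ∑ i : Fin p, c i • (ν ^ ((i : ℕ) + 0)) a := fun c => by
    rw [hedef, Fintype.linearCombination_apply]
    rfl
  have hinj : Function.Injective e := by
    rw [injective_iff_map_eq_zero]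
    intro c hc
    rw [he] at hc
    funext i
    exact nilp_indep ν hν a ha 0 c hc i (by have := i.2; omega)
  have hmem : ∀ k : ℕ, (ν ^ k) a ∈ LinearMap.range e := by
    intro k
    by_cases hk : k < p
    · refine ⟨Pi.single ⟨k, hk⟩ 1, ?_⟩
      rw [he, Finset.sum_eq_single ⟨k, hk⟩]
      · simp
      · intro j _ hj
        rw [Pi.single_eq_of_ne hj, zero_smul]
      · intro h
        exact absurd (Finset.mem_univ _) h
    · have h2 : k = p + (k - p) := by omega
      rw [h2, pow_add, hν, zero_mul]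
      exact Submodule.zero_mem _
  have hfix : ∀ s ∈ LinearMap.range e, ν s = 0 → ∃ c : ZMod p, s = c • (ν ^ (p - 1)) a := by
    rintro s ⟨c, rfl⟩ hs
    rw [he, map_sum] at hs
    have hs' : ∑ i : Fin p, c i • (ν ^ ((i : ℕ) + 1)) a = 0 := by
      rw [← hs]
      refine Finset.sum_congr rfl (fun i _ => ?_)
      rw [map_smul, ← Module.End.mul_apply, ← pow_succ', add_zero]
    have hc := nilp_indep ν hν a ha 1 c hs'
    have hlt : p - 1 < p := Nat.sub_lt hp.pos Nat.one_pos
    refine ⟨c ⟨p - 1, hlt⟩, ?_⟩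
    rw [he, Finset.sum_eq_single ⟨p - 1, hlt⟩]
    · simp
    · intro j _ hj
      have h1 : (j : ℕ) ≠ p - 1 := fun h => hj (Fin.ext h)
      have h2 := j.2
      rw [hc j (by omega), zero_smul]
    · intro h
      exact absurd (Finset.mem_univ _) h
  have hn0S : ∀ c : ZMod p, c • (ν ^ (p - 1)) a ∈ LinearMap.range e ∧
      ν (c • (ν ^ (p - 1)) a) = 0 := by
    intro c
    refine ⟨Submodule.smul_mem _ _ (hmem _), ?_⟩
    rw [map_smul, ← Module.End.mul_apply, ← pow_succ', Nat.sub_add_cancel hp.one_le, hν,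
      LinearMap.zero_apply, smul_zero]
  refine ⟨LinearMap.range e, ?_, ?_, ?_, ?_⟩
  · rintro s ⟨c, rfl⟩
    rw [he, map_sum]
    refine Submodule.sum_mem _ (fun i _ => ?_)
    rw [map_smul]
    refine Submodule.smul_mem _ _ ?_
    rw [← Module.End.mul_apply, ← pow_succ']
    exact hmem _
  · rw [← Nat.card_congr (LinearEquiv.ofInjective e hinj).toEquiv]
    simp
  · have hbij : Function.Bijective (fun c : ZMod p =>
        (⟨c • (ν ^ (p - 1)) a, hn0S c⟩ : {s : A // s ∈ LinearMap.range e ∧ ν s = 0})) := by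
      constructor
      · intro c d hcd
        have h1 : c • (ν ^ (p - 1)) a = d • (ν ^ (p - 1)) a := congrArg Subtype.val hcd
        have h2 : (c - d) • (ν ^ (p - 1)) a = 0 := by rw [sub_smul, h1, sub_self]
        exact sub_eq_zero.mp ((smul_eq_zero.mp h2).resolve_right ha)
      · rintro ⟨s, hsS, hs⟩
        obtain ⟨c, rfl⟩ := hfix s hsS hs
        exact ⟨c, rfl⟩
    rw [← Nat.card_congr (Equiv.ofBijective _ hbij), Nat.card_zmod]
  · intro z hz hνz
    obtain ⟨c, rfl⟩ := hfix z hz hνz
    refine ⟨c • a, Submodule.smul_mem _ _ ?_, by rw [map_smul]⟩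
    have h0 := hmem 0
    simpa using h0

/-- Let `σ` be an operator of order dividing `p` on a `ZMod p`-module and `a` a vector with
`(1 + σ + ⋯ + σ^(p-1)) a ≠ 0`.  Then the `σ`-invariant submodule `S` generated by `a` has order
`p ^ p`, its fixed points have order `p`, and every fixed point in `S` is a norm from `S`. -/
theorem exists_cyclic_submodule (σ : Module.End (ZMod p) A) (hσ : σ ^ p = 1) (a : A)
    (ha : (∑ i ∈ Finset.range p, σ ^ i) a ≠ 0) :
    ∃ S : Submodule (ZMod p) A, (∀ s ∈ S, σ s ∈ S) ∧ Nat.card S = p ^ p ∧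
      Nat.card {s : A // s ∈ S ∧ σ s = s} = p ∧
      ∀ z ∈ S, σ z = z → ∃ b ∈ S, (∑ i ∈ Finset.range p, σ ^ i) b = z := by
  have hp : p.Prime := hpF.out
  obtain ⟨ν, hνdef⟩ : ∃ ν : Module.End (ZMod p) A, ν = σ - 1 := ⟨_, rfl⟩
  have hν : ν ^ p = 0 := by
    have h1 := sub_one_pow_char_pow p σ 1
    rw [pow_one] at h1
    rw [hνdef, h1, hσ, sub_self]
  have hN : ν ^ (p - 1) = ∑ i ∈ Finset.range p, σ ^ i := by
    have h1 := sub_one_pow_pred p σ 1
    rw [pow_one] at h1
    rw [hνdef, h1]
  have hνσ : ∀ s : A, ν s = σ s - s := by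
    intro s
    rw [hνdef]
    rfl
  have hiff : ∀ s : A, ν s = 0 ↔ σ s = s := by
    intro s
    rw [hνσ, sub_eq_zero]
  rw [← hN] at ha
  obtain ⟨S, h1, h2, h3, h4⟩ := exists_cyclic_submodule_aux ν hν a ha
  refine ⟨S, ?_, h2, ?_, ?_⟩
  · intro s hs
    have h5 := S.add_mem (h1 s hs) hs
    rwa [hνσ, sub_add_cancel] at h5
  · refine Eq.trans ?_ h3
    exact Nat.card_congr (Equiv.subtypeEquivRight (fun s => and_congr_right (fun _ => (hiff s).symm)))
  · intro z hz hσz
    rw [← hN]
    exact h4 z hz ((hiff z).mpr hσz)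

end LinearWreath

section Bridge

variable {E : Type u} [Group E]

/-- Type synonym for an abelian subgroup of exponent `p`, carrying its commutative group
structure and (through `Additive`) its `ZMod p`-module structure. -/
def AbSub (V : Subgroup E) (p : ℕ) (_hc : ∀ a ∈ V, ∀ b ∈ V, a * b = b * a)
    (_he : ∀ a ∈ V, a ^ p = 1) : Type u := ↥V

namespace AbSub

variable {V : Subgroup E} {p : ℕ} {hc : ∀ a ∈ V, ∀ b ∈ V, a * b = b * a}
  {he : ∀ a ∈ V, a ^ p = 1}

instance instCommGroup : CommGroup (AbSub V p hc he) :=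
  { (inferInstance : Group ↥V) with
    mul_comm := fun (a b : ↥V) => Subtype.ext (hc a.1 a.2 b.1 b.2) }

/-- The underlying element. -/
def val (v : AbSub V p hc he) : E := Subtype.val (p := fun g => g ∈ V) v

/-- Constructor. -/
def mk (g : E) (h : g ∈ V) : AbSub V p hc he := (⟨g, h⟩ : ↥V)

theorem val_mem (v : AbSub V p hc he) : v.val ∈ V := Subtype.property (p := fun g => g ∈ V) v

theorem val_mk (g : E) (h : g ∈ V) : (mk g h : AbSub V p hc he).val = g := rfl

theorem mk_val (v : AbSub V p hc he) (h : v.val ∈ V) : (mk v.val h : AbSub V p hc he) = v := rfl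

theorem val_mul (a b : AbSub V p hc he) : (a * b).val = a.val * b.val := rfl

theorem val_one : (1 : AbSub V p hc he).val = 1 := rfl

theorem val_inv (a : AbSub V p hc he) : (a⁻¹).val = (a.val)⁻¹ := rfl

theorem ext {a b : AbSub V p hc he} (h : a.val = b.val) : a = b :=
  Subtype.ext (p := fun g => g ∈ V) h

theorem val_pow (a : AbSub V p hc he) (k : ℕ) : (a ^ k).val = a.val ^ k := by
  induction k with
  | zero => rw [pow_zero, pow_zero, val_one]
  | succ k ih => rw [pow_succ, pow_succ, val_mul, ih]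

theorem pow_eq_one (a : AbSub V p hc he) : a ^ p = 1 := by
  apply ext
  rw [val_pow, val_one]
  exact he _ a.val_mem

instance instModule : Module (ZMod p) (Additive (AbSub V p hc he)) :=
  AddCommGroup.zmodModule (fun w => congrArg Additive.ofMul (pow_eq_one (Additive.toMul w)))

/-- Conjugation by `x` on a normal abelian subgroup. -/
def conj [hVn : V.Normal] (x : E) : AbSub V p hc he →* AbSub V p hc he where
  toFun v := mk (x * v.val * x⁻¹) (hVn.conj_mem _ v.val_mem x)
  map_one' := by
    apply ext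
    rw [val_mk, val_one, mul_one, mul_inv_cancel]
  map_mul' a b := by
    apply ext
    rw [val_mk, val_mul, val_mul, val_mk, val_mk]
    group

theorem val_conj [hVn : V.Normal] (x : E) (v : AbSub V p hc he) :
    (conj x v).val = x * v.val * x⁻¹ := rfl

end AbSub

/-- Group form of `exists_cyclic_submodule`: if `V` is an abelian normal subgroup of exponent
`p`, `x ^ p ∈ V` and the "norm" `cprod x a p` of some `a ∈ V` is nontrivial, then there is an
`x`-invariant subgroup `B ≤ V` of order `p ^ p` whose `x`-fixed points have order `p` and are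
norms from `B`. -/
theorem exists_wreath_base {p : ℕ} [hpF : Fact p.Prime] (V : Subgroup E) [hVn : V.Normal]
    (hVc : ∀ a ∈ V, ∀ b ∈ V, a * b = b * a) (hVe : ∀ a ∈ V, a ^ p = 1)
    (x : E) (hxp : x ^ p ∈ V) (a : E) (ha : a ∈ V) (hne : cprod x a p ≠ 1) :
    ∃ B : Subgroup E, B ≤ V ∧ (∀ b ∈ B, x * b * x⁻¹ ∈ B) ∧ Nat.card B = p ^ p ∧
      Nat.card ↥(B ⊓ Subgroup.centralizer ({x} : Set E)) = p ∧
      ∀ z ∈ B, x * z = z * x → ∃ b ∈ B, cprod x b p = z := by
  classical
  have hp : p.Prime := hpF.out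
  obtain ⟨σ, hσdef⟩ : ∃ σ : Additive (AbSub V p hVc hVe) →ₗ[ZMod p] Additive (AbSub V p hVc hVe),
      σ = AddMonoidHom.toZModLinearMap p
        (MonoidHom.toAdditive (AbSub.conj x : AbSub V p hVc hVe →* AbSub V p hVc hVe)) :=
    ⟨_, rfl⟩
  have hσ1 : ∀ v : AbSub V p hVc hVe, σ (Additive.ofMul v) = Additive.ofMul (AbSub.conj x v) := by
    intro v
    rw [hσdef]
    rfl
  have hσk : ∀ (k : ℕ) (v : AbSub V p hVc hVe), (σ ^ k) (Additive.ofMul v) =
      Additive.ofMul (AbSub.mk (x ^ k * v.val * (x ^ k)⁻¹) (hVn.conj_mem _ v.val_mem _) :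
        AbSub V p hVc hVe) := by
    intro k
    induction k with
    | zero =>
      intro v
      rw [pow_zero, Module.End.one_apply]
      congr 1
      apply AbSub.ext
      rw [AbSub.val_mk]
      simp
    | succ k ih =>
      intro v
      rw [pow_succ', Module.End.mul_apply, ih, hσ1]
      congr 1
      apply AbSub.ext
      rw [AbSub.val_conj, AbSub.val_mk, AbSub.val_mk, pow_succ']
      group
  have hsum : ∀ (b : E) (hb : b ∈ V) (k : ℕ), (∑ i ∈ Finset.range k, σ ^ i)
      (Additive.ofMul (AbSub.mk b hb : AbSub V p hVc hVe)) =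
      Additive.ofMul (AbSub.mk (cprod x b k) (cprod_mem V x hb k) : AbSub V p hVc hVe) := by
    intro b hb k
    induction k with
    | zero =>
      rw [Finset.sum_range_zero, LinearMap.zero_apply]
      rfl
    | succ k ih =>
      rw [Finset.sum_range_succ, LinearMap.add_apply, ih, hσk]
      rfl
  have hσp : σ ^ p = 1 := by
    apply LinearMap.ext
    intro w
    have h1 := hσk p (Additive.toMul w)
    rw [Module.End.one_apply]
    refine h1.trans ?_
    show Additive.ofMul _ = Additive.ofMul (Additive.toMul w)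
    congr 1
    apply AbSub.ext
    rw [AbSub.val_mk, hVc _ hxp _ (Additive.toMul w).val_mem, mul_inv_cancel_right]
  have hne' : (∑ i ∈ Finset.range p, σ ^ i)
      (Additive.ofMul (AbSub.mk a ha : AbSub V p hVc hVe)) ≠ 0 := by
    rw [hsum]
    intro h
    apply hne
    exact congrArg (fun w : Additive (AbSub V p hVc hVe) => (Additive.toMul w).val) h
  obtain ⟨S, hS1, hS2, hS3, hS4⟩ := exists_cyclic_submodule σ hσp _ hne'
  obtain ⟨B, hBdef⟩ : ∃ B : Subgroup E, ∀ g : E, g ∈ B ↔
      ∃ h : g ∈ V, Additive.ofMul (AbSub.mk g h : AbSub V p hVc hVe) ∈ S := by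
    refine ⟨{ carrier := {g | ∃ h : g ∈ V, Additive.ofMul (AbSub.mk g h : AbSub V p hVc hVe) ∈ S}
              mul_mem' := ?_
              one_mem' := ?_
              inv_mem' := ?_ }, fun g => Iff.rfl⟩
    · rintro g₁ g₂ ⟨h₁, s₁⟩ ⟨h₂, s₂⟩
      exact ⟨V.mul_mem h₁ h₂, S.add_mem s₁ s₂⟩
    · exact ⟨V.one_mem, S.zero_mem⟩
    · rintro g ⟨h, s⟩
      exact ⟨V.inv_mem h, S.neg_mem s⟩
  have hBV : B ≤ V := fun g hg => ((hBdef g).mp hg).1
  have hBS : ∀ (g : E) (hg : g ∈ B),
      Additive.ofMul (AbSub.mk g (hBV hg) : AbSub V p hVc hVe) ∈ S := by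
    intro g hg
    obtain ⟨h, hs⟩ := (hBdef g).mp hg
    exact hs
  have hSB : ∀ w : Additive (AbSub V p hVc hVe), w ∈ S → (Additive.toMul w).val ∈ B := by
    intro w hw
    exact (hBdef _).mpr ⟨(Additive.toMul w).val_mem, hw⟩
  refine ⟨B, hBV, ?_, ?_, ?_, ?_⟩
  · intro b hb
    have h1 := hS1 _ (hBS b hb)
    rw [hσ1] at h1
    exact hSB _ h1
  · rw [← hS2]
    refine Nat.card_congr
      { toFun := fun g => ⟨Additive.ofMul (AbSub.mk g.1 (hBV g.2) : AbSub V p hVc hVe),
          hBS g.1 g.2⟩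
        invFun := fun w => ⟨(Additive.toMul w.1).val, hSB w.1 w.2⟩
        left_inv := fun g => rfl
        right_inv := fun w => rfl }
  · rw [← hS3]
    have hfix1 : ∀ g : ↥(B ⊓ Subgroup.centralizer ({x} : Set E)),
        σ (Additive.ofMul (AbSub.mk g.1 (hBV g.2.1) : AbSub V p hVc hVe)) =
          Additive.ofMul (AbSub.mk g.1 (hBV g.2.1) : AbSub V p hVc hVe) := by
      intro g
      rw [hσ1]
      congr 1
      apply AbSub.ext
      rw [AbSub.val_conj, AbSub.val_mk]
      have h1 := Subgroup.mem_centralizer_iff.mp g.2.2 x (Set.mem_singleton x)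
      rw [h1, mul_inv_cancel_right]
    have hfix2 : ∀ w : {s : Additive (AbSub V p hVc hVe) // s ∈ S ∧ σ s = s},
        (Additive.toMul w.1).val ∈ B ⊓ Subgroup.centralizer ({x} : Set E) := by
      intro w
      refine Subgroup.mem_inf.mpr ⟨hSB w.1 w.2.1, Subgroup.mem_centralizer_iff.mpr ?_⟩
      intro y hy
      rw [Set.mem_singleton_iff] at hy
      rw [hy]
      have h1 := hσ1 (Additive.toMul w.1)
      have h2 : σ (Additive.ofMul (Additive.toMul w.1)) = w.1 := w.2.2
      rw [h2] at h1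
      have h3 : (Additive.toMul w.1).val = x * (Additive.toMul w.1).val * x⁻¹ :=
        congrArg (fun w : Additive (AbSub V p hVc hVe) => (Additive.toMul w).val) h1
      calc x * (Additive.toMul w.1).val
          = x * (Additive.toMul w.1).val * x⁻¹ * x := by group
        _ = (Additive.toMul w.1).val * x := by rw [← h3]
    refine Nat.card_congr
      { toFun := fun g => ⟨Additive.ofMul (AbSub.mk g.1 (hBV g.2.1) : AbSub V p hVc hVe),
          hBS g.1 g.2.1, hfix1 g⟩
        invFun := fun w => ⟨(Additive.toMul w.1).val, hfix2 w⟩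
        left_inv := fun g => rfl
        right_inv := fun w => rfl }
  · intro z hz hxz
    have h1 : σ (Additive.ofMul (AbSub.mk z (hBV hz) : AbSub V p hVc hVe)) =
        Additive.ofMul (AbSub.mk z (hBV hz) : AbSub V p hVc hVe) := by
      rw [hσ1]
      congr 1
      apply AbSub.ext
      rw [AbSub.val_conj, AbSub.val_mk, hxz, mul_inv_cancel_right]
    obtain ⟨b', hb'S, hb'⟩ := hS4 _ (hBS z hz) h1
    refine ⟨(Additive.toMul b').val, hSB b' hb'S, ?_⟩
    have h2 := hsum (Additive.toMul b').val (Additive.toMul b').val_mem p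
    have h3 : (∑ i ∈ Finset.range p, σ ^ i) (Additive.ofMul (Additive.toMul b')) =
        Additive.ofMul (AbSub.mk z (hBV hz) : AbSub V p hVc hVe) := hb'
    have h4 := h2.symm.trans h3
    exact congrArg (fun w : Additive (AbSub V p hVc hVe) => (Additive.toMul w).val) h4

end Bridge

end Cfsg.Agent.Helper32.HH
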