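-- helper32 library: from an element of order `p` modulo an elementary abelian normal
-- `p`-subgroup with a nontrivial norm, a section isomorphic to `C_p ≀ C_p` (described by the
-- properties used in the statements).  Add-only once landed.
import Cfsg.Agent.Helper32.WreathB
import Cfsg.Agent.Helper50.Basic
import Cfsg.Prelude.Def_LocalEven
import Mathlib.Algebra.Group.Shrink
import Mathlib.GroupTheory.Complement
import Mathlib.GroupTheory.SpecificGroups.Cyclic

set_option autoImplicit false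

namespace Cfsg.Agent.Helper32.HH

open Cfsg

open scoped Pointwise

universe u v w

/-- A quotient of a subgroup of the range of `f : A →* E` is involved in `A`. -/
theorem involves_of_le_range {A : Type u} [Group A] {E : Type v} [Group E] {W : Type w} [Group W]
    (f : A →* E) (K' : Subgroup E) (hK : K' ≤ f.range) (g : ↥K' →* W)
    (hg : Function.Surjective g) : Cfsg.Involves W A := by
  obtain ⟨h, hhdef⟩ : ∃ h : ↥(K'.comap f) →* W, h = g.comp (f.subgroupComap K') := ⟨_, rfl⟩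
  have hh : Function.Surjective h := by
    intro w
    obtain ⟨y, rfl⟩ := hg w
    obtain ⟨a, ha⟩ := hK y.2
    refine ⟨⟨a, ?_⟩, ?_⟩
    · rw [Subgroup.mem_comap, ha]
      exact y.2
    · rw [hhdef]
      exact congrArg g (Subtype.ext ha)
  have h1 : (h.ker.map (K'.comap f).subtype).subgroupOf (K'.comap f) = h.ker :=
    Subgroup.comap_map_eq_self_of_injective (Subgroup.subtype_injective _) _
  have hn : ((h.ker.map (K'.comap f).subtype).subgroupOf (K'.comap f)).Normal := by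
    rw [h1]
    infer_instance
  exact ⟨K'.comap f, h.ker.map (K'.comap f).subtype, hn,
    ⟨(QuotientGroup.quotientMulEquivOfEq h1).trans
      (QuotientGroup.quotientKerEquivOfSurjective h hh)⟩⟩

/-- A subgroup not containing an element of prime order meets its cyclic group trivially. -/
theorem disjoint_zpowers_of_prime {G : Type u} [Group G] (B : Subgroup G) (z : G) {p : ℕ}
    [hpF : Fact p.Prime] (hz : orderOf z = p) (hzB : z ∉ B) :
    Disjoint B (Subgroup.zpowers z) := by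
  have hcard : Nat.card ↥(Subgroup.zpowers z) = p := by rw [Nat.card_zpowers, hz]
  haveI hF : Fact (Nat.card ↥(Subgroup.zpowers z)).Prime := ⟨by rw [hcard]; exact hpF.out⟩
  rcases (B.subgroupOf (Subgroup.zpowers z)).eq_bot_or_eq_top_of_prime_card with h | h
  · exact Subgroup.subgroupOf_eq_bot.mp h
  · exact absurd (Subgroup.subgroupOf_eq_top.mp h (Subgroup.mem_zpowers z)) hzB

section Props

variable {E : Type u} [Group E] [Finite E] {p : ℕ} [hpF : Fact p.Prime]

/-- The wreath-product properties of the quotient of `B ⋊ ⟨t⟩` by `⟨t ^ p⟩`. -/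
theorem wreath_section_props (B : Subgroup E) (t : E)
    (hBc : ∀ a ∈ B, ∀ b ∈ B, a * b = b * a) (hBe : ∀ b ∈ B, b ^ p = 1)
    (hBcard : Nat.card B = p ^ p) (hBt : ∀ b ∈ B, t * b * t⁻¹ ∈ B)
    (hZB : ∀ g ∈ Subgroup.zpowers (t ^ p), g ∈ B → g = 1)
    (htBZ : ∀ b ∈ B, ∀ g ∈ Subgroup.zpowers (t ^ p), t ≠ b * g)
    (hfix : Nat.card ↥(B ⊓ Subgroup.centralizer ({t} : Set E)) = p)
    {W : Type v} [Group W] (φ : ↥(B ⊔ Subgroup.zpowers t) →* W) (hφ : Function.Surjective φ)
    (hker : ∀ y : ↥(B ⊔ Subgroup.zpowers t), φ y = 1 ↔ (y : E) ∈ Subgroup.zpowers (t ^ p)) :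
    ∃ (B' : Subgroup W) (t' : W), B'.Normal ∧ IsMulCommutative B' ∧ (∀ b ∈ B', b ^ p = 1) ∧
      Nat.card B' = p ^ p ∧ orderOf t' = p ∧ t' ∉ B' ∧ Nat.card W = p ^ (p + 1) ∧
      Nat.card ↥(B' ⊓ Subgroup.centralizer ({t'} : Set W)) = p := by
  classical
  have hp : p.Prime := hpF.out
  obtain ⟨K, hKdef⟩ : ∃ K : Subgroup E, K = B ⊔ Subgroup.zpowers t := ⟨_, rfl⟩
  subst hKdef
  have hBK : B ≤ B ⊔ Subgroup.zpowers t := le_sup_left
  have htK : t ∈ B ⊔ Subgroup.zpowers t := Subgroup.mem_sup_right (Subgroup.mem_zpowers t)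
  have htN : t ∈ Subgroup.normalizer (B : Set E) :=
    Cfsg.Agent.Helper50.mem_normalizer_of_conj_mem B t hBt
  have hKN : B ⊔ Subgroup.zpowers t ≤ Subgroup.normalizer (B : Set E) :=
    sup_le Subgroup.le_normalizer ((Subgroup.zpowers_le).mpr htN)
  have hBKn : (B.subgroupOf (B ⊔ Subgroup.zpowers t)).Normal :=
    (Subgroup.normal_subgroupOf_iff hBK).mpr
      (fun h k hh hk => (Subgroup.mem_normalizer_iff.mp (hKN hk) h).mp hh)
  obtain ⟨tK, htKdef⟩ : ∃ tK : ↥(B ⊔ Subgroup.zpowers t), (tK : E) = t := ⟨⟨t, htK⟩, rfl⟩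
  -- `φ` is injective on `B`
  have hinjB : ∀ y : ↥(B ⊔ Subgroup.zpowers t), (y : E) ∈ B → φ y = 1 → y = 1 := by
    intro y hyB hy
    exact Subtype.ext (hZB _ ((hker y).mp hy) hyB)
  have hcardmap : ∀ H : Subgroup ↥(B ⊔ Subgroup.zpowers t),
      H ≤ B.subgroupOf (B ⊔ Subgroup.zpowers t) → Nat.card (H.map φ) = Nat.card H := by
    intro H hH
    have hinj : Function.Injective (φ.subgroupMap H) := by
      rw [injective_iff_map_eq_one]
      intro y hy
      have h1 : φ (y : ↥(B ⊔ Subgroup.zpowers t)) = 1 := congrArg Subtype.val hy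
      exact Subtype.ext (hinjB y.1 (Subgroup.mem_subgroupOf.mp (hH y.2)) h1)
    exact (Nat.card_congr (Equiv.ofBijective _ ⟨hinj, φ.subgroupMap_surjective H⟩)).symm
  have hcardsub : ∀ H : Subgroup E, H ≤ B ⊔ Subgroup.zpowers t →
      Nat.card (H.subgroupOf (B ⊔ Subgroup.zpowers t)) = Nat.card H := by
    intro H hH
    exact Nat.card_congr (Subgroup.subgroupOfEquivOfLe hH).toEquiv
  have hB'n : ((B.subgroupOf (B ⊔ Subgroup.zpowers t)).map φ).Normal := hBKn.map φ hφ
  -- order of `φ t`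
  have ht'p : (φ tK) ^ p = 1 := by
    rw [← map_pow, hker, Subgroup.coe_pow, htKdef]
    exact Subgroup.mem_zpowers _
  have ht'1 : φ tK ≠ 1 := by
    intro h
    have h1 := (hker tK).mp h
    rw [htKdef] at h1
    exact htBZ 1 B.one_mem t h1 (one_mul t).symm
  have ht'ord : orderOf (φ tK) = p := orderOf_eq_prime ht'p ht'1
  have ht'B : φ tK ∉ (B.subgroupOf (B ⊔ Subgroup.zpowers t)).map φ := by
    rintro ⟨b₀, hb₀, hb₀t⟩
    have h1 : φ (b₀⁻¹ * tK) = 1 := by rw [map_mul, map_inv, hb₀t, inv_mul_cancel]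
    have h2 := (hker _).mp h1
    apply htBZ (b₀ : E) (Subgroup.mem_subgroupOf.mp hb₀) _ h2
    rw [Subgroup.coe_mul, Subgroup.coe_inv, htKdef, mul_inv_cancel_left]
  have hdisj : Disjoint ((B.subgroupOf (B ⊔ Subgroup.zpowers t)).map φ)
      (Subgroup.zpowers (φ tK)) := disjoint_zpowers_of_prime _ _ ht'ord ht'B
  -- `W = B' ⊔ ⟨t'⟩`
  have hzp : (Subgroup.zpowers t).subgroupOf (B ⊔ Subgroup.zpowers t) = Subgroup.zpowers tK := by
    have h1 : (Subgroup.zpowers tK).map (B ⊔ Subgroup.zpowers t).subtype = Subgroup.zpowers t := by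
      rw [MonoidHom.map_zpowers, Subgroup.coe_subtype, htKdef]
    have h2 : ((Subgroup.zpowers tK).map (B ⊔ Subgroup.zpowers t).subtype).subgroupOf
        (B ⊔ Subgroup.zpowers t) = Subgroup.zpowers tK :=
      Subgroup.comap_map_eq_self_of_injective (Subgroup.subtype_injective _) _
    rw [h1] at h2
    exact h2
  have htop : (B.subgroupOf (B ⊔ Subgroup.zpowers t)).map φ ⊔ Subgroup.zpowers (φ tK) = ⊤ := by
    rw [← MonoidHom.map_zpowers, ← hzp, ← Subgroup.map_sup,
      ← Subgroup.subgroupOf_sup hBK le_sup_right, Subgroup.subgroupOf_self,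
      Subgroup.map_top_of_surjective φ hφ]
  have hcardW : Nat.card W = p ^ (p + 1) := by
    haveI := hB'n
    have hmul : (((B.subgroupOf (B ⊔ Subgroup.zpowers t)).map φ : Subgroup W) : Set W) *
        ((Subgroup.zpowers (φ tK) : Subgroup W) : Set W) = Set.univ := by
      rw [← Subgroup.normal_mul, htop, Subgroup.coe_top]
    have hc := Subgroup.isComplement'_of_disjoint_and_mul_eq_univ hdisj hmul
    rw [← hc.card_mul_card, hcardmap _ le_rfl, hcardsub B hBK, hBcard, Nat.card_zpowers, ht'ord,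
      pow_succ]
  refine ⟨(B.subgroupOf (B ⊔ Subgroup.zpowers t)).map φ, φ tK, hB'n, ?_, ?_, ?_, ht'ord, ht'B,
    hcardW, ?_⟩
  · refine ⟨⟨?_⟩⟩
    rintro ⟨a, a₀, ha₀, rfl⟩ ⟨b, b₀, hb₀, rfl⟩
    apply Subtype.ext
    show φ a₀ * φ b₀ = φ b₀ * φ a₀
    rw [← map_mul, ← map_mul]
    congr 1
    exact Subtype.ext (hBc _ (Subgroup.mem_subgroupOf.mp ha₀) _ (Subgroup.mem_subgroupOf.mp hb₀))
  · rintro b ⟨b₀, hb₀, rfl⟩
    rw [← map_pow]
    have h1 : b₀ ^ p = 1 := by
      apply Subtype.ext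
      rw [Subgroup.coe_pow]
      exact hBe _ (Subgroup.mem_subgroupOf.mp hb₀)
    rw [h1, map_one]
  · rw [hcardmap _ le_rfl, hcardsub B hBK, hBcard]
  · have hCK : B ⊓ Subgroup.centralizer ({t} : Set E) ≤ B ⊔ Subgroup.zpowers t :=
      inf_le_left.trans hBK
    have heq : (B.subgroupOf (B ⊔ Subgroup.zpowers t)).map φ ⊓
        Subgroup.centralizer ({φ tK} : Set W) =
        ((B ⊓ Subgroup.centralizer ({t} : Set E)).subgroupOf (B ⊔ Subgroup.zpowers t)).map φ := by
      apply le_antisymm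
      · rintro w ⟨⟨b₀, hb₀, rfl⟩, hw⟩
        have hb₀B : (b₀ : E) ∈ B := Subgroup.mem_subgroupOf.mp hb₀
        refine ⟨b₀, Subgroup.mem_subgroupOf.mpr ?_, rfl⟩
        refine Subgroup.mem_inf.mpr ⟨hb₀B, Subgroup.mem_centralizer_iff.mpr ?_⟩
        intro y hy
        rw [Set.mem_singleton_iff] at hy
        rw [hy]
        have h1 : φ tK * φ b₀ = φ b₀ * φ tK :=
          Subgroup.mem_centralizer_iff.mp hw (φ tK) (Set.mem_singleton _)
        have h2 : φ (tK * b₀ * tK⁻¹ * b₀⁻¹) = 1 := by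
          rw [map_mul, map_mul, map_mul, map_inv, map_inv, h1]
          group
        have h3 := (hker _).mp h2
        have h4 : ((tK * b₀ * tK⁻¹ * b₀⁻¹ : ↥(B ⊔ Subgroup.zpowers t)) : E) =
            t * (b₀ : E) * t⁻¹ * (b₀ : E)⁻¹ := by
          rw [Subgroup.coe_mul, Subgroup.coe_mul, Subgroup.coe_mul, Subgroup.coe_inv,
            Subgroup.coe_inv, htKdef]
        rw [h4] at h3
        have h5 := hZB _ h3 (B.mul_mem (hBt _ hb₀B) (B.inv_mem hb₀B))
        calc t * (b₀ : E) = t * (b₀ : E) * t⁻¹ * (b₀ : E)⁻¹ * ((b₀ : E) * t) := by group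
          _ = (b₀ : E) * t := by rw [h5, one_mul]
      · rintro w ⟨c₀, hc₀', rfl⟩
        have hc₀ := Subgroup.mem_inf.mp (Subgroup.mem_subgroupOf.mp hc₀')
        refine Subgroup.mem_inf.mpr ⟨⟨c₀, Subgroup.mem_subgroupOf.mpr hc₀.1, rfl⟩,
          Subgroup.mem_centralizer_iff.mpr ?_⟩
        intro y hy
        rw [Set.mem_singleton_iff] at hy
        rw [hy, ← map_mul, ← map_mul]
        congr 1
        apply Subtype.ext
        rw [Subgroup.coe_mul, Subgroup.coe_mul, htKdef]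
        exact Subgroup.mem_centralizer_iff.mp hc₀.2 t (Set.mem_singleton t)
    rw [heq, hcardmap _ (by
      intro y hy
      rw [Subgroup.mem_subgroupOf] at hy ⊢
      exact hy.1), hcardsub _ hCK, hfix]

end Props

section WSection

variable {E : Type u} [Group E] [Finite E] {p : ℕ} [hpF : Fact p.Prime]

/-- The pair `(B, t)` generating the wreath section. -/
theorem exists_wreath_pair (V : Subgroup E) [hVn : V.Normal]
    (hVc : ∀ a ∈ V, ∀ b ∈ V, a * b = b * a) (hVe : ∀ a ∈ V, a ^ p = 1)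
    (x : E) (hxV : x ∉ V) (hxp : x ^ p ∈ V) (a : E) (ha : a ∈ V) (hne : cprod x a p ≠ 1) :
    ∃ (B : Subgroup E) (t : E), B ≤ V ∧ t ∈ V ⊔ Subgroup.zpowers x ∧
      Nat.card B = p ^ p ∧ (∀ b ∈ B, t * b * t⁻¹ ∈ B) ∧
      (∀ b ∈ B, t ^ p * b = b * t ^ p) ∧
      (∀ g ∈ Subgroup.zpowers (t ^ p), g ∈ B → g = 1) ∧
      (∀ b ∈ B, ∀ g ∈ Subgroup.zpowers (t ^ p), t ≠ b * g) ∧
      Nat.card ↥(B ⊓ Subgroup.centralizer ({t} : Set E)) = p := by
  classical
  have hp : p.Prime := hpF.out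
  obtain ⟨B, hBV, hBx, hBcard, hBfix, hBnorm⟩ := exists_wreath_base V hVc hVe x hxp a ha hne
  have hxz : x * x ^ p = x ^ p * x := (pow_succ' x p).symm.trans (pow_succ x p)
  by_cases hzB : x ^ p ∈ B
  · -- split case
    have hxz' : x * (x ^ p)⁻¹ = (x ^ p)⁻¹ * x := by
      calc x * (x ^ p)⁻¹ = (x ^ p)⁻¹ * (x ^ p * x) * (x ^ p)⁻¹ := by group
        _ = (x ^ p)⁻¹ * (x * x ^ p) * (x ^ p)⁻¹ := by rw [hxz]
        _ = (x ^ p)⁻¹ * x := by group
    obtain ⟨b, hbB, hb⟩ := hBnorm _ (B.inv_mem hzB) hxz'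
    have htp : (b * x) ^ p = 1 := by
      rw [mul_pow_eq_cprod, hb, inv_mul_cancel]
    have hbV : b ∈ V := hBV hbB
    refine ⟨B, b * x, hBV, ?_, hBcard, ?_, ?_, ?_, ?_, ?_⟩
    · exact Subgroup.mul_mem _ (Subgroup.mem_sup_left hbV)
        (Subgroup.mem_sup_right (Subgroup.mem_zpowers x))
    · intro b' hb'
      have h1 : b * x * b' * (b * x)⁻¹ = b * (x * b' * x⁻¹) * b⁻¹ := by group
      rw [h1]
      exact B.mul_mem (B.mul_mem hbB (hBx b' hb')) (B.inv_mem hbB)
    · intro b' _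
      rw [htp, one_mul, mul_one]
    · intro g hg _
      rw [htp, Subgroup.zpowers_one_eq_bot, Subgroup.mem_bot] at hg
      exact hg
    · intro b' hb' g hg h
      rw [htp, Subgroup.zpowers_one_eq_bot, Subgroup.mem_bot] at hg
      rw [hg, mul_one] at h
      apply hxV
      have h2 : x = b⁻¹ * b' := by
        rw [← h]
        group
      rw [h2]
      exact V.mul_mem (V.inv_mem hbV) (hBV hb')
    · have heq : B ⊓ Subgroup.centralizer ({b * x} : Set E) =
          B ⊓ Subgroup.centralizer ({x} : Set E) := by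
        ext g
        simp only [Subgroup.mem_inf, Subgroup.mem_centralizer_iff, Set.mem_singleton_iff,
          forall_eq]
        constructor
        · rintro ⟨hgB, hg⟩
          refine ⟨hgB, ?_⟩
          have h1 := hVc b hbV g (hBV hgB)
          calc x * g = b⁻¹ * (b * x * g) := by group
            _ = b⁻¹ * (g * (b * x)) := by rw [hg]
            _ = b⁻¹ * (g * b) * x := by group
            _ = b⁻¹ * (b * g) * x := by rw [h1]
            _ = g * x := by group
        · rintro ⟨hgB, hg⟩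
          refine ⟨hgB, ?_⟩
          have h1 := hVc b hbV g (hBV hgB)
          calc b * x * g = b * (x * g) := by group
            _ = b * (g * x) := by rw [hg]
            _ = (b * g) * x := by group
            _ = (g * b) * x := by rw [h1]
            _ = g * (b * x) := by group
      rw [heq, hBfix]
  · -- nonsplit case
    have hz1 : x ^ p ≠ 1 := fun h => hzB (h ▸ B.one_mem)
    have hzord : orderOf (x ^ p) = p := orderOf_eq_prime (hVe _ hxp) hz1
    have hdisj := disjoint_zpowers_of_prime B (x ^ p) hzord hzB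
    refine ⟨B, x, hBV, Subgroup.mem_sup_right (Subgroup.mem_zpowers x), hBcard, hBx, ?_, ?_, ?_,
      hBfix⟩
    · intro b hb
      exact hVc _ hxp _ (hBV hb)
    · intro g hg hgB
      exact Subgroup.disjoint_def.mp hdisj hgB hg
    · intro b hb g hg h
      apply hxV
      rw [h]
      exact V.mul_mem (hBV hb) ((Subgroup.zpowers_le.mpr hxp) hg)

/-- **The wreath section.**  Let `V` be an abelian normal subgroup of exponent `p` of the finite
group `E`, and `x ∉ V` with `x ^ p ∈ V` such that some `a ∈ V` has nontrivial norm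
`a · x a x⁻¹ ⋯`.  Then a subgroup of `V ⟨x⟩` maps onto a group `W` (in `Type`) with the
properties of `C_p ≀ C_p` used in the statements. -/
theorem exists_wreath_involved (V : Subgroup E) [hVn : V.Normal]
    (hVc : ∀ a ∈ V, ∀ b ∈ V, a * b = b * a) (hVe : ∀ a ∈ V, a ^ p = 1)
    (x : E) (hxV : x ∉ V) (hxp : x ^ p ∈ V) (a : E) (ha : a ∈ V) (hne : cprod x a p ≠ 1) :
    ∃ (W : Type) (_ : Group W) (_ : Finite W) (K' : Subgroup E) (φ : ↥K' →* W),
      K' ≤ V ⊔ Subgroup.zpowers x ∧ Function.Surjective φ ∧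
      ∃ (B : Subgroup W) (t : W), B.Normal ∧ IsMulCommutative B ∧ (∀ b ∈ B, b ^ p = 1) ∧
        Nat.card B = p ^ p ∧ orderOf t = p ∧ t ∉ B ∧ Nat.card W = p ^ (p + 1) ∧
        Nat.card ↥(B ⊓ Subgroup.centralizer ({t} : Set W)) = p := by
  classical
  obtain ⟨B, t, hBV, htVx, hBcard, hBt, hBz, hZB, htBZ, hfix⟩ :=
    exists_wreath_pair V hVc hVe x hxV hxp a ha hne
  have hK' : B ⊔ Subgroup.zpowers t ≤ V ⊔ Subgroup.zpowers x :=
    sup_le (hBV.trans le_sup_left) (Subgroup.zpowers_le.mpr htVx)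
  have hZK : Subgroup.zpowers (t ^ p) ≤ B ⊔ Subgroup.zpowers t :=
    (Subgroup.zpowers_le.mpr (Subgroup.pow_mem _ (Subgroup.mem_zpowers t) p)).trans le_sup_right
  have hcentK : ∀ k ∈ B ⊔ Subgroup.zpowers t, k * t ^ p = t ^ p * k := by
    have h1 : B ⊔ Subgroup.zpowers t ≤ Subgroup.centralizer ({t ^ p} : Set E) := by
      refine sup_le ?_ (Subgroup.zpowers_le.mpr ?_)
      · intro b hb
        rw [Subgroup.mem_centralizer_iff]
        intro y hy
        rw [Set.mem_singleton_iff] at hy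
        rw [hy]
        exact hBz b hb
      · rw [Subgroup.mem_centralizer_iff]
        intro y hy
        rw [Set.mem_singleton_iff] at hy
        rw [hy]
        exact ((pow_succ' t p).symm.trans (pow_succ t p)).symm
    intro k hk
    exact (Subgroup.mem_centralizer_iff.mp (h1 hk) (t ^ p) (Set.mem_singleton _)).symm
  haveI hZn : ((Subgroup.zpowers (t ^ p)).subgroupOf (B ⊔ Subgroup.zpowers t)).Normal := by
    refine (Subgroup.normal_subgroupOf_iff hZK).mpr ?_
    intro h k hh hk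
    obtain ⟨m, rfl⟩ := Subgroup.mem_zpowers_iff.mp hh
    have h1 : Commute k (t ^ p) := hcentK k hk
    have h2 : k * (t ^ p) ^ m * k⁻¹ = (t ^ p) ^ m := by
      rw [(h1.zpow_right m).eq, mul_inv_cancel_right]
    rw [h2]
    exact hh
  obtain ⟨e, -⟩ : ∃ e : (↥(B ⊔ Subgroup.zpowers t) ⧸
        (Subgroup.zpowers (t ^ p)).subgroupOf (B ⊔ Subgroup.zpowers t)) ≃*
      Shrink.{0} (↥(B ⊔ Subgroup.zpowers t) ⧸
        (Subgroup.zpowers (t ^ p)).subgroupOf (B ⊔ Subgroup.zpowers t)), True :=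
    ⟨Shrink.mulEquiv.symm, trivial⟩
  obtain ⟨φ, hφdef⟩ : ∃ φ : ↥(B ⊔ Subgroup.zpowers t) →*
      Shrink.{0} (↥(B ⊔ Subgroup.zpowers t) ⧸
        (Subgroup.zpowers (t ^ p)).subgroupOf (B ⊔ Subgroup.zpowers t)),
      φ = e.toMonoidHom.comp (QuotientGroup.mk'
        ((Subgroup.zpowers (t ^ p)).subgroupOf (B ⊔ Subgroup.zpowers t))) := ⟨_, rfl⟩
  have hφ : Function.Surjective φ := by
    rw [hφdef]
    exact e.surjective.comp (QuotientGroup.mk'_surjective _)
  have hker : ∀ y : ↥(B ⊔ Subgroup.zpowers t), φ y = 1 ↔ (y : E) ∈ Subgroup.zpowers (t ^ p) := by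
    intro y
    rw [hφdef]
    show e (QuotientGroup.mk' _ y) = 1 ↔ _
    rw [MulEquiv.map_eq_one_iff, QuotientGroup.mk'_apply, QuotientGroup.eq_one_iff,
      Subgroup.mem_subgroupOf]
  exact ⟨Shrink.{0} _, inferInstance, Finite.of_equiv _ (equivShrink _), B ⊔ Subgroup.zpowers t,
    φ, hK', hφ, wreath_section_props B t (fun a ha b hb => hVc a (hBV ha) b (hBV hb))
      (fun b hb => hVe b (hBV hb)) hBcard hBt hZB htBZ hfix φ hφ hker⟩

end WSection

end Cfsg.Agent.Helper32.HH
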